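import Mathlib

/-!
# Numerical comparison of the order of a group of Lie type with its `p`-part
-/

set_option autoImplicit false
set_option linter.unusedVariables false

namespace Cfsg.Agent.H10.LieOrd

/-- the conclusion on the order -/
def Concl (p c : ℕ) : Prop :=
  c < p ^ (3 * c.factorization p) ∧ c ^ 3 < p ^ (8 * c.factorization p)

theorem key {p f N E d X c : ℕ} (hp : p.Prime) (hf : 1 ≤ f) (h : d * c = (p ^ f) ^ N * X) (hd : ¬ p ∣ d) (hX : ¬ p ∣ X)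
    (hlt : X < (p ^ f) ^ E) : c.factorization p = f * N ∧ c < (p ^ f) ^ (N + E) := by
  have hd0 : d ≠ 0 := fun e => hd (e ▸ dvd_zero p)
  have hX0 : X ≠ 0 := fun e => hX (e ▸ dvd_zero p)
  have hq : 0 < p ^ f := pow_pos hp.pos f
  have hq' : (p ^ f) ^ N ≠ 0 := (pow_pos hq N).ne'
  have hc0 : c ≠ 0 := by
    intro e
    rw [e, mul_zero] at h
    exact (mul_ne_zero hq' hX0) h.symm
  constructor
  · have h1 := congrArg (fun n => n.factorization p) h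
    simp only [Nat.factorization_mul hd0 hc0, Nat.factorization_mul hq' hX0, Finsupp.add_apply,
      Nat.factorization_eq_zero_of_not_dvd hd, Nat.factorization_eq_zero_of_not_dvd hX, zero_add, add_zero,
      Nat.factorization_pow, Finsupp.smul_apply, hp.factorization_self, smul_eq_mul, mul_one] at h1
    rw [h1]
    ring
  · have h2 : c ≤ d * c := Nat.le_mul_of_pos_left c (Nat.pos_of_ne_zero hd0)
    calc c ≤ d * c := h2
      _ = (p ^ f) ^ N * X := h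
      _ < (p ^ f) ^ N * (p ^ f) ^ E := Nat.mul_lt_mul_of_pos_left hlt (pow_pos hq N)
      _ = (p ^ f) ^ (N + E) := (pow_add _ _ _).symm

/-- the first inequality only -/
theorem first_of {p f N E d X c : ℕ} (hp : p.Prime) (hf : 1 ≤ f) (h : d * c = (p ^ f) ^ N * X) (hd : ¬ p ∣ d) (hX : ¬ p ∣ X)
    (hlt : X < (p ^ f) ^ E) (hE1 : E ≤ 2 * N) : c < p ^ (3 * c.factorization p) := by
  obtain ⟨h1, h2⟩ := key hp hf h hd hX hlt
  rw [h1]
  calc c < (p ^ f) ^ (N + E) := h2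
    _ ≤ (p ^ f) ^ (3 * N) := Nat.pow_le_pow_right (pow_pos hp.pos f) (by omega)
    _ = p ^ (3 * (f * N)) := by rw [← pow_mul]; congr 1; ring

theorem concl_of {p f N E d X c : ℕ} (hp : p.Prime) (hf : 1 ≤ f) (h : d * c = (p ^ f) ^ N * X) (hd : ¬ p ∣ d) (hX : ¬ p ∣ X)
    (hlt : X < (p ^ f) ^ E) (hE1 : E ≤ 2 * N) (hE2 : 3 * E ≤ 5 * N) : Concl p c := by
  refine ⟨first_of hp hf h hd hX hlt hE1, ?_⟩
  obtain ⟨h1, h2⟩ := key hp hf h hd hX hlt
  rw [h1]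
  calc c ^ 3 < ((p ^ f) ^ (N + E)) ^ 3 := Nat.pow_lt_pow_left h2 (by norm_num)
    _ = (p ^ f) ^ (3 * N + 3 * E) := by rw [← pow_mul]; congr 1; ring
    _ ≤ (p ^ f) ^ (8 * N) := Nat.pow_le_pow_right (pow_pos hp.pos f) (by omega)
    _ = p ^ (8 * (f * N)) := by rw [← pow_mul]; congr 1; ring

section
variable {p f : ℕ} (hp : p.Prime) (hf : 1 ≤ f)
include hp hf

lemma one_lt_q : 1 < p ^ f := Nat.one_lt_pow (by omega) hp.one_lt

lemma p_dvd_pow {i : ℕ} (hi : 1 ≤ i) : p ∣ (p ^ f) ^ i :=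
  dvd_pow (dvd_pow_self p (by omega)) (by omega)

lemma nd_sub {i : ℕ} (hi : 1 ≤ i) : ¬ p ∣ (p ^ f) ^ i - 1 := by
  intro h
  have h1 : 1 ≤ (p ^ f) ^ i := Nat.one_le_pow _ _ (pow_pos hp.pos f)
  have h2 := (Nat.dvd_sub_iff_right h1 (p_dvd_pow hp hf hi)).mp h
  exact hp.one_lt.ne' (Nat.dvd_one.mp h2)

lemma nd_add {i : ℕ} (hi : 1 ≤ i) : ¬ p ∣ (p ^ f) ^ i + 1 := by
  intro h
  have h2 := (Nat.dvd_add_right (p_dvd_pow hp hf hi)).mp h
  exact hp.one_lt.ne' (Nat.dvd_one.mp h2)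

lemma lt_sub {i : ℕ} (hi : 1 ≤ i) : (p ^ f) ^ i - 1 < (p ^ f) ^ i :=
  Nat.sub_lt (pow_pos (pow_pos hp.pos f) i) one_pos

lemma pos_sub {i : ℕ} (hi : 1 ≤ i) : 0 < (p ^ f) ^ i - 1 :=
  Nat.sub_pos_of_lt (Nat.one_lt_pow (by omega) (one_lt_q hp hf))

lemma le_pow_mono {a b : ℕ} (h : a ≤ b) : (p ^ f) ^ a ≤ (p ^ f) ^ b := Nat.pow_le_pow_right (pow_pos hp.pos f) h

/-- a product of the form `(A - 1)(B + 1)` -/
lemma pair {a b : ℕ} (ha : 1 ≤ a) (hab : a ≤ b) : ((p ^ f) ^ a - 1) * ((p ^ f) ^ b + 1) < (p ^ f) ^ (a + b) := by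
  rw [pow_add]
  have h1 : 1 ≤ (p ^ f) ^ a := Nat.one_le_pow _ _ (pow_pos hp.pos f)
  have h2 := le_pow_mono hp hf hab
  obtain ⟨A, hA⟩ : ∃ A, (p ^ f) ^ a = A + 1 := ⟨(p ^ f) ^ a - 1, by omega⟩
  rw [hA] at h2 ⊢
  rw [Nat.add_sub_cancel]
  nlinarith

end

lemma nd_mul {p a b : ℕ} (hp : p.Prime) (ha : ¬ p ∣ a) (hb : ¬ p ∣ b) : ¬ p ∣ a * b := by
  intro h
  rcases (Nat.Prime.dvd_mul hp).mp h with h | h
  · exact ha h
  · exact hb h

lemma nd_of_dvd {p d e : ℕ} (he : ¬ p ∣ e) (h : d ∣ e) : ¬ p ∣ d := fun h1 => he (h1.trans h)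

lemma mul_lt_mul3 {a b A B : ℕ} (h1 : a < A) (h2 : b < B) : a * b < A * B := Nat.mul_lt_mul'' h1 h2

lemma nd_prod {p : ℕ} (hp : p.Prime) {k : ℕ} {g : ℕ → ℕ} (h : ∀ i, i < k → ¬ p ∣ g i) : ¬ p ∣ ∏ i ∈ Finset.range k, g i := by
  intro h1
  obtain ⟨i, hi, h2⟩ := (Prime.dvd_finset_prod_iff hp.prime _).mp h1
  exact h i (Finset.mem_range.mp hi) h2

lemma sum_two (m : ℕ) : ∑ i ∈ Finset.range m, 2 * (i + 1) = m * (m + 1) := by
  induction m with
  | zero => simp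
  | succ m ih =>
    rw [Finset.sum_range_succ, ih]
    ring

lemma sum_S (t : ℕ) : (∑ i ∈ Finset.range t, (i + 2)) * 2 = t * (t + 3) := by
  induction t with
  | zero => simp
  | succ t ih =>
    rw [Finset.sum_range_succ, add_mul, ih]
    ring

section
variable {p f : ℕ} (hp : p.Prime) (hf : 1 ≤ f)
include hp hf

/-- the product of the `q^{2i} - 1` -/
lemma prod_two_lt {m : ℕ} (hm : 1 ≤ m) : ∏ i ∈ Finset.range m, ((p ^ f) ^ (2 * (i + 1)) - 1) < (p ^ f) ^ (m * (m + 1)) := by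
  rw [← sum_two, ← Finset.prod_pow_eq_pow_sum]
  apply Finset.prod_lt_prod_of_nonempty
  · intro i _
    exact pos_sub hp hf (by omega)
  · intro i _
    exact lt_sub hp hf (by omega)
  · exact ⟨0, Finset.mem_range.mpr hm⟩

lemma prod_two_nd (m : ℕ) : ¬ p ∣ ∏ i ∈ Finset.range m, ((p ^ f) ^ (2 * (i + 1)) - 1) :=
  nd_prod hp fun i _ => nd_sub hp hf (by omega)

/-- the symplectic and odd orthogonal orders -/
theorem concl_symp {m d c : ℕ} (hm : 2 ≤ m) (hd : ¬ p ∣ d)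
    (h : d * c = (p ^ f) ^ (m ^ 2) * ∏ i ∈ Finset.range m, ((p ^ f) ^ (2 * (i + 1)) - 1)) : Concl p c := by
  apply concl_of hp hf h hd (prod_two_nd hp hf m) (prod_two_lt hp hf (by omega)) <;> nlinarith

/-- plus type -/
theorem concl_plus {m d c : ℕ} (hm : 4 ≤ m) (hd : ¬ p ∣ d)
    (h : d * c = (p ^ f) ^ (m * (m - 1)) * ((p ^ f) ^ m - 1) * ∏ i ∈ Finset.range (m - 1), ((p ^ f) ^ (2 * (i + 1)) - 1)) : Concl p c := by
  obtain ⟨k, rfl⟩ : ∃ k, m = k + 1 := ⟨m - 1, by omega⟩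
  rw [Nat.add_sub_cancel] at h
  rw [mul_assoc] at h
  apply concl_of hp hf h hd (nd_mul hp (nd_sub hp hf (by omega)) (prod_two_nd hp hf k)) (E := (k + 1) + k * (k + 1))
  · rw [pow_add (p ^ f) (k + 1) (k * (k + 1))]
    exact mul_lt_mul3 (lt_sub hp hf (i := k + 1) (by omega)) (prod_two_lt hp hf (m := k) (by omega))
  · nlinarith
  · nlinarith

/-- minus type -/
theorem concl_minus {m d c : ℕ} (hm : 4 ≤ m) (hd : ¬ p ∣ d)
    (h : d * c = (p ^ f) ^ (m * (m - 1)) * ((p ^ f) ^ m + 1) * ∏ i ∈ Finset.range (m - 1), ((p ^ f) ^ (2 * (i + 1)) - 1)) : Concl p c := by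
  obtain ⟨k, rfl⟩ : ∃ k, m = k + 2 := ⟨m - 2, by omega⟩
  rw [show k + 2 - 1 = k + 1 by omega, Finset.prod_range_succ'] at h
  have e : (p ^ f) ^ ((k + 2) * (k + 1)) * ((p ^ f) ^ (k + 2) + 1) * ((∏ i ∈ Finset.range k, ((p ^ f) ^ (2 * (i + 1 + 1)) - 1)) * ((p ^ f) ^ (2 * (0 + 1)) - 1)) =
      (p ^ f) ^ ((k + 2) * (k + 1)) * ((∏ i ∈ Finset.range k, ((p ^ f) ^ (2 * (i + 1 + 1)) - 1)) * (((p ^ f) ^ 2 - 1) * ((p ^ f) ^ (k + 2) + 1))) := by
    rw [show 2 * (0 + 1) = 2 by norm_num]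
    ring
  rw [e] at h
  have hlt : (∏ i ∈ Finset.range k, ((p ^ f) ^ (2 * (i + 1 + 1)) - 1)) * (((p ^ f) ^ 2 - 1) * ((p ^ f) ^ (k + 2) + 1)) <
      (∏ i ∈ Finset.range k, (p ^ f) ^ (2 * (i + 1 + 1))) * (p ^ f) ^ (2 + (k + 2)) := by
    apply Nat.mul_lt_mul_of_le_of_lt
    · apply Finset.prod_le_prod'
      intro i _
      exact Nat.sub_le _ _
    · exact pair hp hf (by norm_num) (by omega)
    · exact Finset.prod_pos fun i _ => pow_pos (pow_pos hp.pos f) _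
  have hs : ∑ i ∈ Finset.range k, 2 * (i + 1 + 1) = (k + 1) * (k + 2) - 2 := by
    have h0 := sum_two (k + 1)
    rw [Finset.sum_range_succ', show k + 1 + 1 = k + 2 from rfl] at h0
    omega
  rw [Finset.prod_pow_eq_pow_sum, ← pow_add, hs] at hlt
  have hnd : ¬ p ∣ (∏ i ∈ Finset.range k, ((p ^ f) ^ (2 * (i + 1 + 1)) - 1)) * (((p ^ f) ^ 2 - 1) * ((p ^ f) ^ (k + 2) + 1)) :=
    nd_mul hp (nd_prod hp fun i _ => nd_sub hp hf (by omega)) (nd_mul hp (nd_sub hp hf (by norm_num)) (nd_add hp hf (by omega)))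
  have h1 : 2 ≤ (k + 1) * (k + 2) := by nlinarith
  apply concl_of hp hf h hd hnd hlt
  · have h3 : (k + 1) * (k + 2) - 2 + (2 + (k + 2)) = (k + 1) * (k + 2) + (k + 2) := by omega
    rw [h3]
    nlinarith
  · have h3 : (k + 1) * (k + 2) - 2 + (2 + (k + 2)) = (k + 1) * (k + 2) + (k + 2) := by omega
    rw [h3]
    nlinarith

/-- the linear product -/
lemma prod_lin_lt {t : ℕ} (ht : 1 ≤ t) : ∏ i ∈ Finset.range t, ((p ^ f) ^ (i + 2) - 1) < (p ^ f) ^ (∑ i ∈ Finset.range t, (i + 2)) := by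
  rw [← Finset.prod_pow_eq_pow_sum]
  apply Finset.prod_lt_prod_of_nonempty
  · intro i _
    exact pos_sub hp hf (by omega)
  · intro i _
    exact lt_sub hp hf (by omega)
  · exact ⟨0, Finset.mem_range.mpr ht⟩

/-- the alternating product -/
noncomputable def altF (q i : ℕ) : ℕ := if Even i then q ^ (i + 1) + 1 else q ^ (i + 1) - 1

lemma prod_alt_even (k : ℕ) : ∏ i ∈ Finset.range (2 * k), altF (p ^ f) (i + 1) ≤ (p ^ f) ^ (∑ i ∈ Finset.range (2 * k), (i + 2)) := by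
  induction k with
  | zero => simp
  | succ k ih =>
    rw [show 2 * (k + 1) = 2 * k + 1 + 1 by ring, Finset.prod_range_succ, Finset.prod_range_succ, Finset.sum_range_succ,
      Finset.sum_range_succ, mul_assoc]
    have e1 : altF (p ^ f) (2 * k + 1) = (p ^ f) ^ (2 * k + 2) - 1 := by
      unfold altF
      rw [if_neg (by simp [Nat.even_add_one])]
    have e2 : altF (p ^ f) (2 * k + 1 + 1) = (p ^ f) ^ (2 * k + 3) + 1 := by
      unfold altF
      rw [if_pos (by simp [Nat.even_add_one])]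
    rw [e1, e2, add_assoc, pow_add _ (∑ i ∈ Finset.range (2 * k), (i + 2))]
    apply Nat.mul_le_mul ih
    have := pair hp hf (a := 2 * k + 2) (b := 2 * k + 3) (by omega) (by omega)
    convert this.le using 2

lemma prod_alt_lt {t : ℕ} (ht : 1 ≤ t) : ∏ i ∈ Finset.range t, altF (p ^ f) (i + 1) < (p ^ f) ^ (∑ i ∈ Finset.range t, (i + 2)) := by
  obtain ⟨k, rfl | rfl⟩ := Nat.even_or_odd' t
  · obtain ⟨k, rfl⟩ : ∃ j, k = j + 1 := ⟨k - 1, by omega⟩
    rw [show 2 * (k + 1) = 2 * k + 1 + 1 by ring, Finset.prod_range_succ, Finset.prod_range_succ, Finset.sum_range_succ,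
      Finset.sum_range_succ, mul_assoc]
    have e1 : altF (p ^ f) (2 * k + 1) = (p ^ f) ^ (2 * k + 2) - 1 := by
      unfold altF
      rw [if_neg (by simp [Nat.even_add_one])]
    have e2 : altF (p ^ f) (2 * k + 1 + 1) = (p ^ f) ^ (2 * k + 3) + 1 := by
      unfold altF
      rw [if_pos (by simp [Nat.even_add_one])]
    rw [e1, e2, add_assoc, pow_add _ (∑ i ∈ Finset.range (2 * k), (i + 2))]
    apply Nat.mul_lt_mul_of_le_of_lt (prod_alt_even hp hf k)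
    · have := pair hp hf (a := 2 * k + 2) (b := 2 * k + 3) (by omega) (by omega)
      convert this using 2
    · exact pow_pos (pow_pos hp.pos f) _
  · rw [Finset.prod_range_succ, Finset.sum_range_succ, pow_add]
    have e1 : altF (p ^ f) (2 * k + 1) = (p ^ f) ^ (2 * k + 2) - 1 := by
      unfold altF
      rw [if_neg (by simp [Nat.even_add_one])]
    rw [e1]
    apply Nat.mul_lt_mul_of_le_of_lt (prod_alt_even hp hf k) (lt_sub hp hf (by omega))
    exact pow_pos (pow_pos hp.pos f) _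

lemma prod_alt_nd (t : ℕ) : ¬ p ∣ ∏ i ∈ Finset.range t, altF (p ^ f) (i + 1) := by
  apply nd_prod hp
  intro i _
  unfold altF
  split_ifs
  · exact nd_add hp hf (by omega)
  · exact nd_sub hp hf (by omega)

/-- the unitary order -/
theorem concl_unitary {n d c : ℕ} (hn : 3 ≤ n) (hd : ¬ p ∣ d)
    (h : d * ((p ^ f + 1) * c) = (p ^ f) ^ (n * (n - 1) / 2) * ∏ i ∈ Finset.range n, (if Even i then (p ^ f) ^ (i + 1) + 1 else (p ^ f) ^ (i + 1) - 1)) :
    Concl p c := by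
  obtain ⟨t, rfl⟩ : ∃ t, n = t + 1 := ⟨n - 1, by omega⟩
  rw [Finset.prod_range_succ', Nat.add_sub_cancel] at h
  have e0 : (if Even 0 then (p ^ f) ^ (0 + 1) + 1 else (p ^ f) ^ (0 + 1) - 1) = p ^ f + 1 := by simp
  rw [e0] at h
  have h2 : d * c = (p ^ f) ^ ((t + 1) * t / 2) * ∏ i ∈ Finset.range t, altF (p ^ f) (i + 1) := by
    apply Nat.eq_of_mul_eq_mul_left (show 0 < p ^ f + 1 by omega)
    have e3 : ∏ i ∈ Finset.range t, altF (p ^ f) (i + 1) = ∏ i ∈ Finset.range t, (if Even (i + 1) then (p ^ f) ^ (i + 1 + 1) + 1 else (p ^ f) ^ (i + 1 + 1) - 1) := rfl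
    rw [e3]
    calc (p ^ f + 1) * (d * c) = d * ((p ^ f + 1) * c) := by ring
      _ = _ := h
      _ = _ := by ring
  have hN : (t + 1) * t / 2 * 2 = (t + 1) * t := Nat.div_mul_cancel (by
    have := Nat.even_mul_succ_self t
    rw [mul_comm] at this
    exact this.two_dvd)
  have hS := sum_S t
  apply concl_of hp hf h2 hd (prod_alt_nd hp hf t) (prod_alt_lt hp hf (by omega))
  · nlinarith
  · nlinarith

/-- the linear order, first part -/
lemma linear_eq {n c d : ℕ} (hn : 2 ≤ n) (h : d * ((p ^ f - 1) * c) = ∏ i : Fin n, ((p ^ f) ^ n - (p ^ f) ^ (i : ℕ))) :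
    d * c = (p ^ f) ^ (n * (n - 1) / 2) * ∏ i ∈ Finset.range (n - 1), ((p ^ f) ^ (i + 2) - 1) := by
  obtain ⟨t, rfl⟩ : ∃ t, n = t + 1 := ⟨n - 1, by omega⟩
  rw [Nat.add_sub_cancel]
  rw [Fin.prod_univ_eq_prod_range (fun i => (p ^ f) ^ (t + 1) - (p ^ f) ^ i) (t + 1), ← Finset.prod_range_reflect] at h
  have hq := one_lt_q hp hf
  have e1 : ∀ j ∈ Finset.range (t + 1), (p ^ f) ^ (t + 1) - (p ^ f) ^ (t + 1 - 1 - j) = (p ^ f) ^ (t - j) * ((p ^ f) ^ (j + 1) - 1) := by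
    intro j hj
    have hj' : j ≤ t := Nat.lt_succ_iff.mp (Finset.mem_range.mp hj)
    rw [Nat.add_sub_cancel, Nat.mul_sub, mul_one, ← pow_add]
    congr 2
    omega
  rw [Finset.prod_congr rfl e1, Finset.prod_mul_distrib, Finset.prod_pow_eq_pow_sum, Finset.prod_range_succ'] at h
  have e2 : ∑ j ∈ Finset.range (t + 1), (t - j) = (t + 1) * t / 2 := by
    calc ∑ j ∈ Finset.range (t + 1), (t - j) = ∑ j ∈ Finset.range (t + 1), (t + 1 - 1 - j) := by simp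
      _ = ∑ j ∈ Finset.range (t + 1), j := Finset.sum_range_reflect (fun j => j) (t + 1)
      _ = (t + 1) * (t + 1 - 1) / 2 := Finset.sum_range_id _
      _ = (t + 1) * t / 2 := by simp
  rw [e2] at h
  have e3 : (p ^ f) ^ (0 + 1) - 1 = p ^ f - 1 := by simp
  rw [e3] at h
  have hq1 : 0 < p ^ f - 1 := by omega
  apply Nat.eq_of_mul_eq_mul_left hq1
  calc (p ^ f - 1) * (d * c) = d * ((p ^ f - 1) * c) := by ring
    _ = _ := h
    _ = _ := by ring

/-- the linear groups of degree at least three -/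
theorem concl_linear {n d c : ℕ} (hn : 3 ≤ n) (hd : ¬ p ∣ d) (h : d * ((p ^ f - 1) * c) = ∏ i : Fin n, ((p ^ f) ^ n - (p ^ f) ^ (i : ℕ))) :
    Concl p c := by
  have h2 := linear_eq hp hf (by omega) h
  obtain ⟨t, rfl⟩ : ∃ t, n = t + 1 := ⟨n - 1, by omega⟩
  rw [Nat.add_sub_cancel] at h2
  have hN : (t + 1) * t / 2 * 2 = (t + 1) * t := Nat.div_mul_cancel (by
    have := Nat.even_mul_succ_self t
    rw [mul_comm] at this
    exact this.two_dvd)
  have hS := sum_S t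
  apply concl_of hp hf h2 hd (nd_prod hp fun i _ => nd_sub hp hf (by omega)) (prod_lin_lt hp hf (by omega))
  · nlinarith
  · nlinarith

/-- the linear groups of degree two -/
theorem first_linear_two {d c : ℕ} (hd : ¬ p ∣ d) (h : d * ((p ^ f - 1) * c) = ∏ i : Fin 2, ((p ^ f) ^ 2 - (p ^ f) ^ (i : ℕ))) :
    c < p ^ (3 * c.factorization p) ∧ c.factorization p = f := by
  have h2 := linear_eq hp hf (le_refl 2) h
  simp only [show 2 * (2 - 1) / 2 = 1 by norm_num, show 2 - 1 = 1 by norm_num] at h2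
  have hnd : ¬ p ∣ ∏ i ∈ Finset.range 1, ((p ^ f) ^ (i + 2) - 1) := nd_prod hp fun i _ => nd_sub hp hf (by omega)
  have hlt : ∏ i ∈ Finset.range 1, ((p ^ f) ^ (i + 2) - 1) < (p ^ f) ^ 2 := by
    simpa using lt_sub hp hf (i := 2) (by norm_num)
  refine ⟨first_of hp hf h2 hd hnd hlt (by norm_num), ?_⟩
  rw [(key hp hf h2 hd hnd hlt).1, mul_one]

/-- products of `q^e - 1` -/
lemma list_lt {L : List ℕ} (hL : ∀ e ∈ L, 1 ≤ e) (hne : L ≠ []) : (L.map fun e => (p ^ f) ^ e - 1).prod < (p ^ f) ^ L.sum := by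
  induction L with
  | nil => exact absurd rfl hne
  | cons a L ih =>
    simp only [List.map_cons, List.prod_cons, List.sum_cons]
    rw [pow_add]
    have h1 := lt_sub hp hf (hL a List.mem_cons_self)
    cases L with
    | nil =>
      simpa using h1
    | cons b L =>
      exact mul_lt_mul3 h1 (ih (fun e he => hL e (List.mem_cons_of_mem _ he)) (by simp))

lemma list_nd {L : List ℕ} (hL : ∀ e ∈ L, 1 ≤ e) : ¬ p ∣ (L.map fun e => (p ^ f) ^ e - 1).prod := by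
  induction L with
  | nil => simpa using hp.one_lt.ne'
  | cons a L ih =>
    simp only [List.map_cons, List.prod_cons]
    exact nd_mul hp (nd_sub hp hf (hL a List.mem_cons_self)) (ih (fun e he => hL e (List.mem_cons_of_mem _ he)))

/-- the untwisted exceptional orders -/
theorem concl_list {N d c : ℕ} (L : List ℕ) (hL : ∀ e ∈ L, 1 ≤ e) (hne : L ≠ []) (hd : ¬ p ∣ d)
    (h : d * c = (p ^ f) ^ N * (L.map fun e => (p ^ f) ^ e - 1).prod) (hE1 : L.sum ≤ 2 * N) (hE2 : 3 * L.sum ≤ 5 * N) : Concl p c :=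
  concl_of hp hf h hd (list_nd hp hf hL) (list_lt hp hf hL hne) hE1 hE2

/-- `²E₆` -/
theorem concl_2E6 {d c : ℕ} (hd : ¬ p ∣ d) (h : d * c = (p ^ f) ^ 36 * ((p ^ f) ^ 2 - 1) * ((p ^ f) ^ 5 + 1) * ((p ^ f) ^ 6 - 1) * ((p ^ f) ^ 8 - 1) * ((p ^ f) ^ 9 + 1) * ((p ^ f) ^ 12 - 1)) :
    Concl p c := by
  have h2 : d * c = (p ^ f) ^ 36 * ((((p ^ f) ^ 2 - 1) * ((p ^ f) ^ 5 + 1)) * ((((p ^ f) ^ 8 - 1) * ((p ^ f) ^ 9 + 1)) * (((p ^ f) ^ 6 - 1) * ((p ^ f) ^ 12 - 1)))) := by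
    rw [h]
    ring
  refine concl_of hp hf h2 hd ?_ (E := (2 + 5) + ((8 + 9) + (6 + 12))) ?_ (by norm_num) (by norm_num)
  · exact nd_mul hp (nd_mul hp (nd_sub hp hf (by norm_num)) (nd_add hp hf (by norm_num))) (nd_mul hp (nd_mul hp (nd_sub hp hf (by norm_num)) (nd_add hp hf (by norm_num)))
      (nd_mul hp (nd_sub hp hf (by norm_num)) (nd_sub hp hf (by norm_num))))
  · rw [pow_add, pow_add (p ^ f) (8 + 9), pow_add (p ^ f) 6 12]
    exact mul_lt_mul3 (pair hp hf (by norm_num) (by norm_num)) (mul_lt_mul3 (pair hp hf (by norm_num) (by norm_num))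
      (mul_lt_mul3 (lt_sub hp hf (by norm_num)) (lt_sub hp hf (by norm_num))))

/-- `³D₄` -/
theorem concl_3D4 {c : ℕ} (h : c = (p ^ f) ^ 12 * ((p ^ f) ^ 2 - 1) * ((p ^ f) ^ 6 - 1) * ((p ^ f) ^ 8 + (p ^ f) ^ 4 + 1)) : Concl p c := by
  have h2 : 1 * c = (p ^ f) ^ 12 * ((((p ^ f) ^ 2 - 1) * ((p ^ f) ^ 8 + (p ^ f) ^ 4 + 1)) * ((p ^ f) ^ 6 - 1)) := by
    rw [one_mul, h]
    ring
  have hq := one_lt_q hp hf
  have hnd : ¬ p ∣ (p ^ f) ^ 8 + (p ^ f) ^ 4 + 1 := by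
    intro h1
    have h3 : p ∣ (p ^ f) ^ 8 + (p ^ f) ^ 4 := dvd_add (p_dvd_pow hp hf (by norm_num)) (p_dvd_pow hp hf (by norm_num))
    have h4 := (Nat.dvd_add_right h3).mp h1
    exact hp.one_lt.ne' (Nat.dvd_one.mp h4)
  refine concl_of hp hf h2 (by simpa using hp.one_lt.ne') ?_ (E := 10 + 6) ?_ (by norm_num) (by norm_num)
  · exact nd_mul hp (nd_mul hp (nd_sub hp hf (by norm_num)) hnd) (nd_sub hp hf (by norm_num))
  · rw [pow_add]
    apply mul_lt_mul3 _ (lt_sub hp hf (by norm_num))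
    generalize p ^ f = q at hq
    obtain ⟨r, rfl⟩ : ∃ r, q = r + 2 := ⟨q - 2, by omega⟩
    have e1 : (r + 2) ^ 2 - 1 = r ^ 2 + 4 * r + 3 := by
      have : (r + 2) ^ 2 = r ^ 2 + 4 * r + 3 + 1 := by ring
      omega
    rw [e1]
    nlinarith [pow_pos (show 0 < r + 2 by omega) 4, pow_pos (show 0 < r + 2 by omega) 8, Nat.zero_le r,
      show (r ^ 2 + 4 * r + 3) * ((r + 2) ^ 8 + (r + 2) ^ 4 + 1) + ((r + 2) ^ 8 - (r+2)^6 + (r+2)^4 - (r+2)^2 + 1) * 0 = (r ^ 2 + 4 * r + 3) * ((r + 2) ^ 8 + (r + 2) ^ 4 + 1) by ring,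
      Nat.pow_le_pow_left (show 2 ≤ r + 2 by omega) 2]

/-- rank one and `²F₄` -/
theorem concl_Sz {c : ℕ} (h : c = (p ^ f) ^ 2 * (p ^ f - 1) * ((p ^ f) ^ 2 + 1)) : Concl p c := by
  have h2 : 1 * c = (p ^ f) ^ 2 * (((p ^ f) ^ 1 - 1) * ((p ^ f) ^ 2 + 1)) := by
    rw [one_mul, h, pow_one]
    ring
  exact concl_of hp hf h2 (by simpa using hp.one_lt.ne') (nd_mul hp (nd_sub hp hf (by norm_num)) (nd_add hp hf (by norm_num)))
    (pair hp hf (by norm_num) (by norm_num)) (by norm_num) (by norm_num)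

theorem concl_Ree {c : ℕ} (h : c = (p ^ f) ^ 3 * (p ^ f - 1) * ((p ^ f) ^ 3 + 1)) : Concl p c := by
  have h2 : 1 * c = (p ^ f) ^ 3 * (((p ^ f) ^ 1 - 1) * ((p ^ f) ^ 3 + 1)) := by
    rw [one_mul, h, pow_one]
    ring
  exact concl_of hp hf h2 (by simpa using hp.one_lt.ne') (nd_mul hp (nd_sub hp hf (by norm_num)) (nd_add hp hf (by norm_num)))
    (pair hp hf (by norm_num) (by norm_num)) (by norm_num) (by norm_num)

theorem concl_2F4 {c : ℕ} (h : c = (p ^ f) ^ 12 * (p ^ f - 1) * ((p ^ f) ^ 3 + 1) * ((p ^ f) ^ 4 - 1) * ((p ^ f) ^ 6 + 1)) : Concl p c := by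
  have h2 : 1 * c = (p ^ f) ^ 12 * ((((p ^ f) ^ 1 - 1) * ((p ^ f) ^ 3 + 1)) * (((p ^ f) ^ 4 - 1) * ((p ^ f) ^ 6 + 1))) := by
    rw [one_mul, h, pow_one]
    ring
  refine concl_of hp hf h2 (by simpa using hp.one_lt.ne') ?_ (E := (1 + 3) + (4 + 6)) ?_ (by norm_num) (by norm_num)
  · exact nd_mul hp (nd_mul hp (nd_sub hp hf (by norm_num)) (nd_add hp hf (by norm_num))) (nd_mul hp (nd_sub hp hf (by norm_num)) (nd_add hp hf (by norm_num)))
  · rw [pow_add]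
    exact mul_lt_mul3 (pair hp hf (by norm_num) (by norm_num)) (pair hp hf (by norm_num) (by norm_num))

end

/-- the order of the field in terms of the characteristic -/
lemma q_eq {F : Type*} [Field F] [Fintype F] {p : ℕ} [CharP F p] (hp : p.Prime) {q k : ℕ} (hk : k ≠ 0) (h : Fintype.card F = q ^ k) :
    ∃ f, 1 ≤ f ∧ q = p ^ f := by
  obtain ⟨n, -, h2⟩ := FiniteField.card F p
  have h3 : q ∣ p ^ (n : ℕ) := by
    rw [← h2, h]
    exact dvd_pow_self q hk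
  obtain ⟨f, -, rfl⟩ := (Nat.dvd_prime_pow hp).1 h3
  refine ⟨f, ?_, rfl⟩
  by_contra hf
  have hf0 : f = 0 := by omega
  subst hf0
  have h4 := Fintype.one_lt_card (α := F)
  rw [h] at h4
  simp at h4

end Cfsg.Agent.H10.LieOrd
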