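import Mathlib
import Cfsg.Agent.Lib.H10.PS1Table

/-! Zeros of the characters of `SL₂(q)`, `q` odd. -/

set_option autoImplicit false
set_option linter.unusedSectionVars false
set_option linter.unusedSimpArgs false
set_option linter.style.haveILetI false

namespace Cfsg.Agent.H10

open Cfsg Cfsg.Agent.H21 Matrix

open scoped ComplexConjugate Classical

local notation "SL₂" => Matrix.SpecialLinearGroup (Fin 2)

section Zero

variable {F : Type*} [Field F] [Fintype F] [Fintype (SL₂ F)]

variable {χ₁ χ₂ : IrrCharacter (SL₂ F)}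

/-- The constituents of the reducible principal series vanish at elliptic elements. -/
theorem half_no_eig (hodd : Odd (Fintype.card F)) (hp : HalfPair χ₁ χ₂) (g : SL₂ F)
    (hg : ∀ (c : F) (v : Fin 2 → F), v ≠ 0 → (g : Matrix (Fin 2) (Fin 2) F).mulVec v ≠ c • v) :
    χ₁.1 g = 0 := by
  obtain ⟨ν, hν⟩ := FiniteField.exists_nonsquare (S2325.char_ne_two hodd)
  have hν0 : ν ≠ 0 := by
    rintro rfl
    exact hν IsSquare.zero
  have h1 := half_swap hodd hp (Units.mk0 ν hν0) (by simpa using hν)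
  have h2 : χ₂.1 g = χ₁.1 g := by
    rw [← h1, tauIrr_apply]
    exact class_eq_of_isConj (isClassFunction_of_isCharacter (isCharacter_of_irr χ₁.2))
      (elliptic_conj hodd _ g hg)
  have h3 := congrFun hp.2 g
  rw [pi1_no_eig _ g hg, Pi.add_apply, h2] at h3
  have h4 : (2 : ℂ) * χ₁.1 g = 0 := by
    linear_combination -h3
  exact (mul_eq_zero.mp h4).resolve_left two_ne_zero

lemma elliptic_ne_one (g : SL₂ F)
    (hg : ∀ (c : F) (v : Fin 2 → F), v ≠ 0 → (g : Matrix (Fin 2) (Fin 2) F).mulVec v ≠ c • v) :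
    g ≠ 1 := by
  rintro rfl
  refine hg 1 ![1, 0] ?_ ?_
  · intro h0
    have := congrFun h0 0
    simp at this
  · simp

lemma elliptic_trace (hodd : Odd (Fintype.card F)) (g : SL₂ F)
    (hg : ∀ (c : F) (v : Fin 2 → F), v ≠ 0 → (g : Matrix (Fin 2) (Fin 2) F).mulVec v ≠ c • v) :
    (g : Matrix (Fin 2) (Fin 2) F).trace ^ 2 ≠ 4 := by
  set t := (g : Matrix (Fin 2) (Fin 2) F).trace with ht
  have h2 : (2 : F) ≠ 0 := Ring.two_ne_zero (S2325.char_ne_two hodd)
  intro h4
  have hdet : (g : Matrix (Fin 2) (Fin 2) F).det = 1 := g.2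
  have h5 : ((g : Matrix (Fin 2) (Fin 2) F) - (t / 2) • (1 : Matrix (Fin 2) (Fin 2) F)).det = 0 := by
    rw [Matrix.det_fin_two] at hdet ⊢
    rw [ht, Matrix.trace_fin_two] at h4 ⊢
    simp only [Matrix.sub_apply, Matrix.smul_apply, Matrix.one_apply, smul_eq_mul]
    simp
    field_simp
    linear_combination 4 * hdet - h4
  obtain ⟨v, hv, hv2⟩ := Matrix.exists_mulVec_eq_zero_iff.mpr h5
  apply hg (t / 2) v hv
  rw [Matrix.sub_mulVec, Matrix.smul_mulVec, Matrix.one_mulVec] at hv2
  exact sub_eq_zero.mp hv2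

section Three

variable (h3 : Fintype.card F = 3)

include h3

lemma three_eq_zero : (3 : F) = 0 := by
  have := FiniteField.cast_card_eq_zero F
  rw [h3] at this
  exact_mod_cast this

lemma sq_eq_one_of_three (x : F) (hx : x ≠ 0) : x ^ 2 = 1 := by
  have := FiniteField.pow_card_sub_one_eq_one x hx
  rwa [h3] at this

lemma elliptic_fourth (g : SL₂ F)
    (hg : ∀ (c : F) (v : Fin 2 → F), v ≠ 0 → (g : Matrix (Fin 2) (Fin 2) F).mulVec v ≠ c • v) :
    g * g * g * g = 1 := by
  have hodd : Odd (Fintype.card F) := by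
    rw [h3]
    decide
  have h30 := three_eq_zero h3
  have ht : (g : Matrix (Fin 2) (Fin 2) F).trace = 0 := by
    by_contra h
    apply elliptic_trace hodd g hg
    rw [sq_eq_one_of_three h3 _ h]
    linear_combination -h30
  rw [Matrix.trace_fin_two] at ht
  have hdet : (g : Matrix (Fin 2) (Fin 2) F).det = 1 := g.2
  rw [Matrix.det_fin_two] at hdet
  have hsq : g * g = -1 := by
    apply Matrix.SpecialLinearGroup.ext
    intro i j
    have e : (g : Matrix (Fin 2) (Fin 2) F) 1 1 = -(g : Matrix (Fin 2) (Fin 2) F) 0 0 := by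
      linear_combination ht
    rw [e] at hdet
    rw [Matrix.SpecialLinearGroup.coe_mul, Matrix.mul_apply, Fin.sum_univ_two,
      Matrix.SpecialLinearGroup.coe_neg, Matrix.SpecialLinearGroup.coe_one]
    fin_cases i <;> fin_cases j <;> simp [e]
    · linear_combination -hdet
    · ring
    · ring
    · linear_combination -hdet
  calc g * g * g * g = (g * g) * (g * g) := by group
    _ = 1 := by
      rw [hsq]
      simp

lemma unip_cube (x : F) :
    ((b1Mk 1 x : B1 F) : SL₂ F) * ((b1Mk 1 x : B1 F) : SL₂ F) * ((b1Mk 1 x : B1 F) : SL₂ F) = 1 := by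
  have h30 := three_eq_zero h3
  apply Matrix.SpecialLinearGroup.ext
  intro i j
  rw [Matrix.SpecialLinearGroup.coe_mul, Matrix.SpecialLinearGroup.coe_mul, b1Mk_coe]
  fin_cases i <;> fin_cases j <;> simp [Matrix.mul_apply, Fin.sum_univ_two]
  linear_combination x * h30

/-- Linear characters of `SL₂(3)` are trivial at elliptic elements. -/
lemma linear_value_three (ξ : IrrCharacter (SL₂ F)) (hd : charDegree ξ.1 = 1) (g : SL₂ F)
    (hg : ∀ (c : F) (v : Fin 2 → F), v ≠ 0 → (g : Matrix (Fin 2) (Fin 2) F).mulVec v ≠ c • v) :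
    ξ.1 g = 1 := by
  have hch := isCharacter_of_irr ξ.2
  have hmul := linear_mul hch hd
  have h1 : ξ.1 1 = 1 := by
    rw [one_eq_charDegree hch, hd]
    simp
  have h4 : (ξ.1 g) ^ 3 = 1 := by
    have := mul_trivial_of_unip (fun g => ξ.1 g ^ 3) (by
      intro a b
      simp only [hmul, mul_pow]) (by
      intro x
      have h5 := unip_cube h3 x
      have h6 := congrArg ξ.1 h5
      rw [hmul, hmul, h1] at h6
      rw [← h6]
      ring) g
    exact this
  have h5 : (ξ.1 g) ^ 4 = 1 := by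
    have h6 := congrArg ξ.1 (elliptic_fourth h3 g hg)
    rw [hmul, hmul, hmul, h1] at h6
    rw [← h6]
    ring
  linear_combination h5 - (ξ.1 g) * h4

/-- The cuspidal character of degree two of `SL₂(3)` vanishes at elliptic elements. -/
theorem cusp_two_three (χ : IrrCharacter (SL₂ F)) (hc : IsCusp1 χ) (hd : charDegree χ.1 = 2) (g : SL₂ F)
    (hg : ∀ (c : F) (v : Fin 2 → F), v ≠ 0 → (g : Matrix (Fin 2) (Fin 2) F).mulVec v ≠ c • v) :
    χ.1 g = 0 := by
  have hodd : Odd (Fintype.card F) := by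
    rw [h3]
    decide
  have hm : Fintype.card F = 2 * 1 + 1 := by rw [h3]
  obtain ⟨χ₁, χ₂, hp⟩ := exists_halfPair (F := F)
  have hsum := sum_degree_mul_value_ne (G := SL₂ F) (elliptic_ne_one g hg)
  have hT : Tset F = ∅ := by
    have := card_T_odd hodd 1 hm
    exact Finset.card_eq_zero.mp (by omega)
  have hE := validE_odd hodd hp
  rw [← Finset.sum_compl_add_sum (Nset {χ₁, χ₂}), ← CuspS_eq hodd hp] at hsum
  -- the part of the noncuspidal characters
  have h1 : ∑ ψ ∈ Nset {χ₁, χ₂}, (charDegree ψ.1 : ℂ) * ψ.1 g = -2 := by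
    unfold Nset
    have hm1 : oneIrr (F := F) ∉ insert stIrr (Tset F ∪ {χ₁, χ₂}) := by
      intro h
      rw [Finset.mem_insert, Finset.mem_union] at h
      rcases h with h | h | h
      · exact oneIrr_ne_stIrr h
      · exact oneIrr_not_mem_T h
      · exact hE.one_not h
    have hm2 : stIrr (F := F) ∉ Tset F ∪ {χ₁, χ₂} := by
      intro h
      rw [Finset.mem_union] at h
      rcases h with h | h
      · exact stIrr_not_mem_T h
      · exact hE.st_not h
    rw [Finset.sum_insert hm1, Finset.sum_insert hm2, hT, Finset.empty_union, Finset.sum_pair hp.1,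
      half_no_eig hodd hp g hg, half_no_eig hodd hp.symm g hg, oneIrr_degree, stIrr_degree, h3]
    have h4 : (stIrr (F := F)).1 g = -1 := (st1_values g).2.1 hg
    rw [h4]
    have h5 : (oneIrr (F := F)).1 g = 1 := rfl
    rw [h5]
    push_cast
    norm_num
  have hcc := card_cusp_half_full hodd 1 hm hp
  have hsplit := Finset.sum_filter_add_sum_filter_not (CuspS F) (fun ψ => charDegree ψ.1 = 1)
    (fun ψ => (charDegree ψ.1 : ℂ) * ψ.1 g)
  have h2 : ∑ ψ ∈ (CuspS F).filter (fun ψ => charDegree ψ.1 = 1), (charDegree ψ.1 : ℂ) * ψ.1 g = 2 := by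
    have : ∀ ψ ∈ (CuspS F).filter (fun ψ => charDegree ψ.1 = 1), (charDegree ψ.1 : ℂ) * ψ.1 g = 1 := by
      intro ψ hψ
      have h6 := (Finset.mem_filter.mp hψ).2
      rw [h6, linear_value_three h3 ψ h6 g hg]
      simp
    rw [Finset.sum_congr rfl this, Finset.sum_const, hcc.1]
    norm_num
  have hfilt : (CuspS F).filter (fun ψ => ¬ charDegree ψ.1 = 1) = {χ} := by
    have h6 : (CuspS F).filter (fun ψ => ¬ charDegree ψ.1 = 1) = (CuspS F).filter (fun ψ => charDegree ψ.1 = 2 * 1) := by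
      apply Finset.filter_congr
      intro ψ hψ
      have := cusp_degree_odd hodd 1 hm ψ (mem_CuspS.mp hψ)
      omega
    rw [h6]
    have h7 := hcc.2
    obtain ⟨a, ha⟩ := Finset.card_eq_one.mp h7
    have h8 : χ ∈ (CuspS F).filter (fun ψ => charDegree ψ.1 = 2 * 1) :=
      Finset.mem_filter.mpr ⟨mem_CuspS.mpr hc, hd⟩
    rw [ha] at h8 ⊢
    rw [Finset.mem_singleton.mp h8]
  rw [hfilt, Finset.sum_singleton, h2, hd] at hsplit
  rw [← hsplit, h1] at hsum
  push_cast at hsum
  have h9 : (2 : ℂ) * χ.1 g = 0 := by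
    linear_combination hsum
  exact (mul_eq_zero.mp h9).resolve_left two_ne_zero

end Three

end Zero

end Cfsg.Agent.H10
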