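import Mathlib
import Cfsg.Agent.Lib.H10.PS1Zero

/-! Values at transvections of the half degree characters of `SL₂(q)`: Gauss sums. -/

set_option autoImplicit false
set_option linter.unusedSectionVars false
set_option linter.unusedSimpArgs false
set_option linter.style.haveILetI false

namespace Cfsg.Agent.H10

open Cfsg Cfsg.Agent.H21 Matrix

open scoped ComplexConjugate Classical

local notation "SL₂" => Matrix.SpecialLinearGroup (Fin 2)

section Gauss

variable {F : Type*} [Field F] [Fintype F]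

/-- The transvections as a homomorphism. -/
noncomputable def uHom : Multiplicative F →* SL₂ F where
  toFun b := ((b1Mk 1 (Multiplicative.toAdd b) : B1 F) : SL₂ F)
  map_one' := b1Mk_one_zero
  map_mul' a b := by
    apply Matrix.SpecialLinearGroup.ext
    intro i j
    rw [Matrix.SpecialLinearGroup.coe_mul, b1Mk_coe, b1Mk_coe, b1Mk_coe]
    fin_cases i <;> fin_cases j <;> simp [Matrix.mul_apply, Fin.sum_univ_two]
    exact add_comm _ _

lemma exists_addChar_ne_one : ∃ ψ : AddChar F ℂ, ψ ≠ 1 := by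
  obtain ⟨ψ, hψ⟩ := AddChar.exists_apply_ne_zero.mpr (one_ne_zero : (1 : F) ≠ 0)
  refine ⟨ψ, ?_⟩
  rintro rfl
  simp at hψ

lemma qc_isQuadratic : (qc F).IsQuadratic :=
  (quadraticChar_isQuadratic F).comp _

lemma qc_neg_one (hodd : Odd (Fintype.card F)) :
    qc F (-1) = (-1 : ℂ) ^ ((Fintype.card F - 1) / 2) := by
  rw [qc_apply, quadraticChar_neg_one (S2325.char_ne_two hodd),
    ZMod.χ₄_eq_neg_one_pow (Nat.odd_iff.mp hodd)]
  push_cast
  congr 1
  obtain ⟨k, hk⟩ := hodd
  omega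

variable [Fintype (SL₂ F)]

/-- The multiplicity of an additive character in the restriction to the transvections. -/
lemma unip_mult_nat (f : SL₂ F → ℂ) (hf : IsCharacter (SL₂ F) f) (ψ : AddChar F ℂ) (c : F) :
    ∃ m : ℕ, (Fintype.card F : ℂ) * m =
      ∑ b : F, f ((b1Mk 1 b : B1 F) : SL₂ F) * ψ (c * b) := by
  have h1 := isCharacter_comp (uHom (F := F)) hf
  have h2 : IsCharacter (Multiplicative F) (fun b => ψ (-c * Multiplicative.toAdd b)) := by
    refine isCharacter_of_mul _ ?_ ?_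
    · intro a b
      rw [toAdd_mul, mul_add, AddChar.map_add_eq_mul]
    · simp
  obtain ⟨m, hm⟩ := classInner_isCharacter_nat h1 h2
  refine ⟨m, ?_⟩
  rw [← hm]
  unfold classInner
  rw [Nat.card_eq_fintype_card]
  have hc : Fintype.card (Multiplicative F) = Fintype.card F := Fintype.card_congr Multiplicative.toAdd
  rw [hc, mul_inv_cancel_left₀ q_ne_zero]
  rw [← Equiv.sum_comp Multiplicative.ofAdd]
  refine Finset.sum_congr rfl fun b _ => ?_
  have : conj (ψ (-c * Multiplicative.toAdd (Multiplicative.ofAdd b))) = ψ (c * b) := by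
    rw [← AddChar.map_neg_eq_conj]
    simp
  rw [this]
  rfl

/-- The Fourier coefficient of a class function on the transvections. -/
lemma unip_fourier (hodd : Odd (Fintype.card F)) (f : SL₂ F → ℂ) (hf : IsClassFunction (SL₂ F) f)
    (ν : Fˣ) (hν : ¬ IsSquare (ν : F)) (ψ : AddChar F ℂ) (hψ : ψ ≠ 1) (c : Fˣ) :
    2 * ∑ b : F, f ((b1Mk 1 b : B1 F) : SL₂ F) * ψ ((c : F) * b) =
      (f ((b1Mk 1 1 : B1 F) : SL₂ F) - f ((b1Mk 1 (ν : F) : B1 F) : SL₂ F)) *
        (qc F (c : F) * gaussSum (qc F) ψ) +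
      (2 * f 1 - (f ((b1Mk 1 1 : B1 F) : SL₂ F) + f ((b1Mk 1 (ν : F) : B1 F) : SL₂ F))) := by
  set a := f ((b1Mk 1 1 : B1 F) : SL₂ F) with ha
  set a' := f ((b1Mk 1 (ν : F) : B1 F) : SL₂ F) with ha'
  have hprim := AddChar.IsPrimitive.of_ne_one hψ
  have key : ∀ b : F, 2 * (f ((b1Mk 1 b : B1 F) : SL₂ F) * ψ ((c : F) * b)) =
      (a + a') * ψ (b * (c : F)) + (a - a') * (qc F b * ψ ((c : F) * b)) +
        (if b = 0 then 2 * f 1 - (a + a') else 0) := by
    intro b
    by_cases hb : b = 0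
    · subst hb
      rw [if_pos rfl, b1Mk_one_zero, mul_zero, zero_mul, AddChar.map_zero_eq_one]
      simp
    · rw [if_neg hb, mul_comm b, qc_apply, add_zero, ← mul_assoc, unip_value f hf ν hν b hb]
      ring
  rw [Finset.mul_sum, Finset.sum_congr rfl (fun b _ => key b), Finset.sum_add_distrib,
    Finset.sum_add_distrib, ← Finset.mul_sum, ← Finset.mul_sum, AddChar.sum_mulShift _ hprim,
    if_neg c.ne_zero, Finset.sum_ite_eq' Finset.univ, if_pos (Finset.mem_univ _)]
  have h1 : ∑ b : F, qc F b * ψ ((c : F) * b) = qc F (c : F) * gaussSum (qc F) ψ := by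
    have h2 := gaussSum_mulShift_eq (qc F) ψ c
    rw [qc_inv] at h2
    rw [← h2]
    rfl
  rw [h1]
  ring

/-- The key formula. -/
theorem unip_gauss (hodd : Odd (Fintype.card F)) (f : SL₂ F → ℂ) (hf : IsCharacter (SL₂ F) f)
    (ν : Fˣ) (hν : ¬ IsSquare (ν : F))
    (hs : 2 * f 1 - (f ((b1Mk 1 1 : B1 F) : SL₂ F) + f ((b1Mk 1 (ν : F) : B1 F) : SL₂ F)) =
      (Fintype.card F : ℂ)) :
    (f ((b1Mk 1 1 : B1 F) : SL₂ F) - f ((b1Mk 1 (ν : F) : B1 F) : SL₂ F)) ^ 2 =
      (-1 : ℂ) ^ ((Fintype.card F - 1) / 2) * (Fintype.card F : ℂ) := by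
  obtain ⟨ψ, hψ⟩ := exists_addChar_ne_one (F := F)
  have hcl := isClassFunction_of_isCharacter hf
  have hprim := AddChar.IsPrimitive.of_ne_one hψ
  have hG := gaussSum_sq (qc_ne_one hodd) qc_isQuadratic hprim
  set G := gaussSum (qc F) ψ with hGdef
  set D := f ((b1Mk 1 1 : B1 F) : SL₂ F) - f ((b1Mk 1 (ν : F) : B1 F) : SL₂ F) with hD
  have hq := q_ne_zero (F := F)
  obtain ⟨m₁, hm₁⟩ := unip_mult_nat f hf ψ (((1 : Fˣ) : F))
  obtain ⟨m₂, hm₂⟩ := unip_mult_nat f hf ψ ((ν : F))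
  have h1 := unip_fourier hodd f hcl ν hν ψ hψ 1
  have h2 := unip_fourier hodd f hcl ν hν ψ hψ ν
  rw [← hm₁, hs] at h1
  rw [← hm₂, hs] at h2
  have hν1 : qc F (ν : F) = -1 := by
    rw [qc_apply, quadraticChar_neg_one_iff_not_isSquare.mpr hν]
    simp
  have h11 : qc F ((1 : Fˣ) : F) = 1 := by
    simp
  rw [h11, ← hD, ← hGdef] at h1
  rw [hν1, ← hD, ← hGdef] at h2
  have hsum : (2 : ℂ) * (Fintype.card F : ℂ) * ((m₁ + m₂ : ℕ) - 1) = 0 := by
    push_cast
    linear_combination h1 + h2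
  have h3 := (mul_eq_zero.mp hsum).resolve_left (mul_ne_zero two_ne_zero hq)
  have h4 : m₁ + m₂ = 1 := by
    have : ((m₁ + m₂ : ℕ) : ℂ) = 1 := by linear_combination h3
    exact_mod_cast this
  have h5 : (D * G) ^ 2 = (Fintype.card F : ℂ) ^ 2 := by
    have hm : m₁ = 0 ∨ m₁ = 1 := by omega
    rcases hm with rfl | rfl
    · have : D * G = -(Fintype.card F : ℂ) := by
        push_cast at h1
        linear_combination -h1
      rw [this]
      ring
    · have : D * G = (Fintype.card F : ℂ) := by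
        push_cast at h1
        linear_combination -h1
      rw [this]
  rw [mul_pow, hG] at h5
  have h6 : qc F (-1) ^ 2 = 1 := by
    rw [qc_apply]
    have : (quadraticChar F (-1)) ^ 2 = 1 := quadraticChar_sq_one (by simp)
    exact_mod_cast this
  rw [← qc_neg_one hodd]
  have h7 : (Fintype.card F : ℂ) * (D ^ 2 - qc F (-1) * (Fintype.card F : ℂ)) = 0 := by
    linear_combination (qc F (-1)) * h5 - (D ^ 2 * (Fintype.card F : ℂ)) * h6
  have h8 := (mul_eq_zero.mp h7).resolve_left hq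
  linear_combination h8

end Gauss

end Cfsg.Agent.H10
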