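import Cfsg.Agent.Lib.H10.ReeSol
import Cfsg.Agent.Lib.H09.SL2Mult
import Cfsg.Agent.Lib.H19.SchurProd
import Cfsg.Agent.Lib.H19.Hopf2

/-!
# The Schur multiplier of the small Ree groups
-/

set_option autoImplicit false
set_option linter.style.longLine false
set_option linter.unusedSimpArgs false
set_option linter.unusedSectionVars false
set_option linter.style.haveILetI false
set_option maxRecDepth 100000

open Cfsg Cfsg.Lie Cfsg.Agent.H04.Chev Matrix
open scoped MatrixGroups commutatorElement Pointwise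

namespace Cfsg.Agent.H10

section forms

variable {F : Type*} [Field F]

/-- Biadditive forms with a semi-invariance vanish. -/
lemma form_vanish3 {Z : Type*} [CommGroup Z] {c : F → F → Z}
    (hl : ∀ x x' y, c (x + x') y = c x y * c x' y) (hr : ∀ x y y', c x (y + y') = c x y * c x y')
    {l₁ l₂ f₁ f₂ : F} (h12 : l₁ + l₂ = 1) (hf₁ : f₁ ≠ 0) (hf₂ : f₂ ≠ 0)
    (h₁ : ∀ a b, c (l₁ * a) (f₁ * b) = c a b) (h₂ : ∀ a b, c (l₂ * a) (f₂ * b) = c a b)
    (hw : 1 - f₁⁻¹ - f₂⁻¹ ≠ 0) : ∀ a b, c a b = 1 := by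
  have hs₁ : ∀ a b, c (l₁ * a) b = c a (f₁⁻¹ * b) := by
    intro a b
    have := h₁ a (f₁⁻¹ * b)
    rwa [mul_inv_cancel_left₀ hf₁] at this
  have hs₂ : ∀ a b, c (l₂ * a) b = c a (f₂⁻¹ * b) := by
    intro a b
    have := h₂ a (f₂⁻¹ * b)
    rwa [mul_inv_cancel_left₀ hf₂] at this
  have h0 : ∀ a, c a 0 = 1 := fun a => H09.form_zero_right hr a
  have hneg : ∀ a x, c a (-x) = (c a x)⁻¹ := by
    intro a x
    rw [eq_inv_iff_mul_eq_one, ← hr, neg_add_cancel, h0]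
  set w := 1 - f₁⁻¹ - f₂⁻¹ with hwdef
  have key : ∀ a b, c a (w * b) = 1 := by
    intro a b
    have e : w * b = b + -(f₁⁻¹ * b) + -(f₂⁻¹ * b) := by
      rw [hwdef]
      ring
    have e2 : a = l₁ * a + l₂ * a := by rw [← add_mul, h12, one_mul]
    have e3 : c a b = c (l₁ * a) b * c (l₂ * a) b := by rw [← hl, ← e2]
    rw [e, hr, hr, hneg, hneg, ← hs₁, ← hs₂, e3]
    rw [mul_right_comm (c (l₁ * a) b), mul_inv_cancel, one_mul, mul_inv_cancel]
  intro a b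
  have := key a (w⁻¹ * b)
  rwa [mul_inv_cancel_left₀ hw] at this

/-- The version for central commutators. -/
lemma comm_form_vanish {Δ : Type*} [Group Δ] (A B : F → Δ) (hAB : ∀ a b, ⁅A a, B b⁆ ∈ Subgroup.center Δ)
    (hl : ∀ x x' y, ⁅A (x + x'), B y⁆ = ⁅A x, B y⁆ * ⁅A x', B y⁆)
    (hr : ∀ x y y', ⁅A x, B (y + y')⁆ = ⁅A x, B y⁆ * ⁅A x, B y'⁆)
    {l₁ l₂ f₁ f₂ : F} (h12 : l₁ + l₂ = 1) (hf₁ : f₁ ≠ 0) (hf₂ : f₂ ≠ 0)
    (h₁ : ∀ a b, ⁅A (l₁ * a), B (f₁ * b)⁆ = ⁅A a, B b⁆) (h₂ : ∀ a b, ⁅A (l₂ * a), B (f₂ * b)⁆ = ⁅A a, B b⁆)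
    (hw : 1 - f₁⁻¹ - f₂⁻¹ ≠ 0) : ∀ a b, ⁅A a, B b⁆ = 1 := by
  letI : CommGroup (Subgroup.center Δ) :=
    { (inferInstance : Group (Subgroup.center Δ)) with
      mul_comm := fun a b => Subtype.ext (Subgroup.mem_center_iff.1 b.2 a.1) }
  let c : F → F → Subgroup.center Δ := fun a b => ⟨⁅A a, B b⁆, hAB a b⟩
  have hc : ∀ a b, c a b = 1 := form_vanish3 (fun x x' y => Subtype.ext (hl x x' y))
    (fun x y y' => Subtype.ext (hr x y y')) h12 hf₁ hf₂ (fun a b => Subtype.ext (h₁ a b))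
    (fun a b => Subtype.ext (h₂ a b)) hw
  intro a b
  exact congrArg Subtype.val (hc a b)

/-- A value for the torus forms. -/
lemma exists_l_N [Fintype F] {N : ℕ} (hN : 1 ≤ N) (h : 2 * N + 2 < Fintype.card F) :
    ∃ l : F, l ≠ 0 ∧ 1 - l ≠ 0 ∧ 1 - (l ^ N)⁻¹ - ((1 - l) ^ N)⁻¹ ≠ 0 := by
  classical
  let R : Polynomial F := (Polynomial.X * (1 - Polynomial.X)) ^ N - (1 - Polynomial.X) ^ N - Polynomial.X ^ N
  let P : Polynomial F := Polynomial.X * (1 - Polynomial.X) * R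
  have hN0 : N ≠ 0 := by omega
  have hR0 : R.eval 0 = -1 := by
    simp only [R, Polynomial.eval_sub, Polynomial.eval_pow, Polynomial.eval_mul, Polynomial.eval_X, Polynomial.eval_one]
    simp [hN0]
  have hR : R ≠ 0 := by
    intro h
    rw [h] at hR0
    simp at hR0
  have hX1 : (1 - Polynomial.X : Polynomial F) ≠ 0 := by
    intro h
    have := congrArg (Polynomial.eval 0) h
    simp at this
  have hP : P ≠ 0 := mul_ne_zero (mul_ne_zero Polynomial.X_ne_zero hX1) hR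
  have hdeg : P.natDegree ≤ 2 * N + 2 := by
    simp only [P, R]
    compute_degree
    all_goals omega
  have hlt : P.natDegree < Fintype.card F := by omega
  obtain ⟨u, hu⟩ := Polynomial.exists_eval_ne_zero_of_natDegree_lt_card P hP (by simpa using hlt)
  simp only [P, R, Polynomial.eval_mul, Polynomial.eval_sub, Polynomial.eval_X, Polynomial.eval_one,
    Polynomial.eval_pow] at hu
  have hu0 : u ≠ 0 := fun h => hu (by simp [h])
  have hu1 : 1 - u ≠ 0 := fun h => hu (by simp [h])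
  have hu2 : (u * (1 - u)) ^ N - (1 - u) ^ N - u ^ N ≠ 0 := fun h => hu (by simp [h])
  refine ⟨u, hu0, hu1, fun h => hu2 ?_⟩
  have h3 : u ^ N ≠ 0 := pow_ne_zero _ hu0
  have h4 : (1 - u) ^ N ≠ 0 := pow_ne_zero _ hu1
  have e : (1 - (u ^ N)⁻¹ - ((1 - u) ^ N)⁻¹) * (u ^ N * (1 - u) ^ N) = (u * (1 - u)) ^ N - (1 - u) ^ N - u ^ N := by
    rw [mul_pow]
    field_simp
  rw [h, zero_mul] at e
  exact e.symm

/-- A value for the form on the second root subgroup. -/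
lemma exists_sq_pair [Fintype F] (h3 : (3 : F) = 0) (hc : Fintype.card F % 4 = 3) (hq : 3 < Fintype.card F) :
    ∃ x y : F, x ≠ 0 ∧ y ≠ 0 ∧ x ^ 2 + y ^ 2 = 1 ∧ 1 - (x ^ 2)⁻¹ - (y ^ 2)⁻¹ ≠ 0 := by
  classical
  have hneg : ∀ s : F, s ^ 2 ≠ -1 := by
    intro s hs
    have h1 : IsSquare (-1 : F) := ⟨s, by rw [← hs, sq]⟩
    have h2 : ringChar F ≠ 2 := by
      intro h2
      have h4 : (2 : F) = 0 := by
        have := ringChar.Nat.cast_ringChar (R := F)
        rw [h2] at this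
        exact_mod_cast this
      have h5 : (1 : F) = 0 := by linear_combination h3 - h4
      exact one_ne_zero h5
    exact (FiniteField.isSquare_neg_one_iff.1 h1) hc
  have h2 : (2 : F) ≠ 0 := by
    intro h4
    have h5 : (1 : F) = 0 := by linear_combination h3 - h4
    exact one_ne_zero h5
  let P : Polynomial F := Polynomial.X * (Polynomial.X - 1) * (Polynomial.X + 1)
  have hP : P ≠ 0 := by
    simp only [P]
    exact mul_ne_zero (mul_ne_zero Polynomial.X_ne_zero (Polynomial.X_sub_C_ne_zero (1 : F))) (Polynomial.X_add_C_ne_zero (1 : F))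
  have hdeg : P.natDegree ≤ 3 := by
    simp only [P]
    compute_degree
  obtain ⟨s, hs⟩ := Polynomial.exists_eval_ne_zero_of_natDegree_lt_card P hP (by
    have : P.natDegree < Fintype.card F := by omega
    simpa using this)
  simp only [P, Polynomial.eval_mul, Polynomial.eval_sub, Polynomial.eval_add, Polynomial.eval_X, Polynomial.eval_one] at hs
  have hs0 : s ≠ 0 := fun h => hs (by simp [h])
  have hs1 : s - 1 ≠ 0 := fun h => hs (by simp [h])
  have hs2 : s + 1 ≠ 0 := fun h => hs (by simp [h])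
  have hd : 1 + s ^ 2 ≠ 0 := by
    intro h
    exact hneg s (by linear_combination h)
  set x := (1 - s ^ 2) / (1 + s ^ 2) with hx
  set y := 2 * s / (1 + s ^ 2) with hy
  have hn : 1 - s ^ 2 ≠ 0 := by
    have : 1 - s ^ 2 = -((s - 1) * (s + 1)) := by ring
    rw [this]
    exact neg_ne_zero.2 (mul_ne_zero hs1 hs2)
  have hx0 : x ≠ 0 := div_ne_zero hn hd
  have hy0 : y ≠ 0 := div_ne_zero (mul_ne_zero h2 hs0) hd
  have hxy : x ^ 2 + y ^ 2 = 1 := by
    rw [hx, hy, div_pow, div_pow, ← add_div, div_eq_one_iff_eq (pow_ne_zero _ hd)]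
    ring
  clear_value x y
  refine ⟨x, y, hx0, hy0, hxy, ?_⟩
  intro h
  have e : (1 - (x ^ 2)⁻¹ - (y ^ 2)⁻¹) * (x ^ 2 * y ^ 2) = x ^ 2 * y ^ 2 - y ^ 2 - x ^ 2 := by
    field_simp
  rw [h, zero_mul] at e
  have e2 : y ^ 2 = 1 - x ^ 2 := by linear_combination hxy
  have e3 : (x ^ 2 + 1) ^ 2 = 0 := by
    rw [e2] at e
    linear_combination e + x ^ 2 * h3
  have e4 : x ^ 2 + 1 = 0 := by
    exact pow_eq_zero_iff (by norm_num) |>.1 e3
  exact hneg x (by linear_combination e4)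

end forms

section commutators

variable {G : Type*} [Group G]

lemma ree_comm_mul_left_of_commute (u v k : G) (h : v * k = k * v) : ⁅u * v, k⁆ = ⁅u, k⁆ := by
  rw [commutatorElement_def, commutatorElement_def]
  calc u * v * k * (u * v)⁻¹ * k⁻¹ = u * (v * k) * v⁻¹ * u⁻¹ * k⁻¹ := by group
    _ = u * (k * v) * v⁻¹ * u⁻¹ * k⁻¹ := by rw [h]
    _ = _ := by group

lemma ree_comm_mul_right_of_commute (u v k : G) (h : v * k = k * v) : ⁅k, u * v⁆ = ⁅k, u⁆ := by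
  rw [← commutatorElement_inv, ree_comm_mul_left_of_commute u v k h, commutatorElement_inv]

lemma ree_comm_mul_left (g h k : G) (hc : g * ⁅h, k⁆ = ⁅h, k⁆ * g) :
    ⁅g * h, k⁆ = ⁅h, k⁆ * ⁅g, k⁆ := by
  have : ⁅g * h, k⁆ = g * ⁅h, k⁆ * g⁻¹ * ⁅g, k⁆ := by
    simp only [commutatorElement_def]
    group
  rw [this, hc, mul_inv_cancel_right]

lemma ree_comm_mul_right (a b c : G) (hc : b * ⁅a, c⁆ = ⁅a, c⁆ * b) : ⁅a, b * c⁆ = ⁅a, b⁆ * ⁅a, c⁆ := by
  have e : ⁅a, b * c⁆ = ⁅a, b⁆ * (b * ⁅a, c⁆ * b⁻¹) := by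
    simp only [commutatorElement_def]
    group
  rw [e, hc, mul_inv_cancel_right]

lemma ree_comm_triple (x y c : G) : ⁅x * y, c⁆ = ⁅x, ⁅y, c⁆⁆ * ⁅y, c⁆ * ⁅x, c⁆ := by
  simp only [commutatorElement_def]
  group

end commutators

end Cfsg.Agent.H10
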