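import Cfsg.Agent.Lib.H10.ReeMult

/-!
# The Schur multiplier of the small Ree groups: the `3`-part
-/

set_option autoImplicit false
set_option linter.style.longLine false
set_option linter.unusedSimpArgs false
set_option linter.unusedSectionVars false
set_option linter.style.haveILetI false
set_option maxRecDepth 100000
set_option maxHeartbeats 4000000

open Cfsg Cfsg.Lie Cfsg.Agent.H04.Chev Matrix
open scoped MatrixGroups commutatorElement Pointwise

namespace Cfsg.Agent.H10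

variable {K : Type*} [Field K] [CharP K 3] {m : ℕ} [Fintype K] (hK : Fintype.card K = 3 ^ (2 * m + 1))

/-- The lower root group of the unipotent radical. -/
def tV2 : Subgroup (RT K m) where
  carrier := {g | ∃ u v, g = tU m 0 u v}
  one_mem' := ⟨0, 0, tU_zero.symm⟩
  mul_mem' := by
    rintro _ _ ⟨u, v, rfl⟩ ⟨u', v', rfl⟩
    exact ⟨_, _, tU_0uv hK _ _ _ _⟩
  inv_mem' := by
    rintro _ ⟨u, v, rfl⟩
    exact ⟨_, _, tU_0uv_inv hK _ _⟩

lemma mem_tV2 (g : RT K m) : g ∈ tV2 hK ↔ ∃ u v, g = tU m 0 u v := Iff.rfl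

include hK

omit hK [Fintype K] in
lemma ree_sigma_pow (l : K) : reeF K m l ^ 3 = l ^ (3 ^ (m + 1)) := by
  rw [reeF_apply, ← pow_mul, pow_succ]

lemma ree_beta_l {l : K} (hl : l ≠ 0) : ∃ β : Kˣ, reeF K m (β : K) ^ 3 * (β : K) ^ 2 = l ∧ reeF K m (β : K) ^ 3 * (β : K) = l ^ (3 ^ (m + 1) - 1) := by
  have ha : reeF K m l ≠ 0 := (map_ne_zero _).2 hl
  have hb : l ^ 2 / reeF K m l ^ 3 ≠ 0 := div_ne_zero (pow_ne_zero _ hl) (pow_ne_zero _ ha)
  refine ⟨Units.mk0 _ hb, ?_, ?_⟩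
  all_goals
    have e : reeF K m (l ^ 2 / reeF K m l ^ 3) = reeF K m l ^ 2 / l := by
      rw [map_div₀, map_pow, (reeF_tits hK).pow3 l]
    simp only [Units.val_mk0]
    rw [e]
  · field_simp
  · have h1 : l ^ (3 ^ (m + 1) - 1) * l = reeF K m l ^ 3 := by
      rw [ree_sigma_pow, ← pow_succ]
      congr 1
      have : 1 ≤ 3 ^ (m + 1) := Nat.one_le_pow _ _ (by norm_num)
      omega
    have h2 : l ^ (3 ^ (m + 1) - 1) = reeF K m l ^ 3 / l := by
      rw [eq_div_iff hl]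
      exact h1
    rw [h2]
    field_simp

lemma ree_beta_sq {x : K} (hx : x ≠ 0) : ∃ β : Kˣ, reeF K m (β : K) ^ 3 * (β : K) = x ^ 2 := by
  have ha : reeF K m x ≠ 0 := (map_ne_zero _).2 hx
  have hb : reeF K m x ^ 3 / x ≠ 0 := div_ne_zero (pow_ne_zero _ ha) hx
  refine ⟨Units.mk0 _ hb, ?_⟩
  have e : reeF K m (reeF K m x ^ 3 / x) = x / reeF K m x := by
    rw [map_div₀, (reeF_tits hK).pow3 x]
  simp only [Units.val_mk0]
  rw [e]
  field_simp

omit hK in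
lemma tU_XYW (hK : Fintype.card K = 3 ^ (2 * m + 1)) (t u v : K) : tU m t 0 0 * (tU m 0 u 0 * tU m 0 0 v) = tU m t u v := by
  rw [tU_mul hK, tU_mul hK]
  simp

lemma tU_YW (u w : K) : tU m 0 u 0 * tU m 0 0 w = tU m (0 : K) u w := by
  rw [tU_0uv hK]
  simp

lemma tV2_comm (u v u' v' : K) : tU m (0 : K) u v * tU m 0 u' v' = tU m 0 u' v' * tU m 0 u v := by
  rw [tU_0uv hK, tU_0uv hK, add_comm u, add_comm v]

lemma tU_comm_XV (t u w : K) : ⁅tU m t 0 0, tU m 0 u w⁆ = tU m 0 0 (t * u) := by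
  rw [commutatorElement_def, mul_inv_eq_iff_eq_mul, mul_inv_eq_iff_eq_mul, tU_mul hK, tU_0uv hK, tU_mul hK]
  congr 1 <;> simp

lemma tU_comm_mem (t u v t' u' v' : K) : ⁅tU m t u v, tU m t' u' v'⁆ ∈ tV2 (m := m) hK := by
  rw [commutatorElement_def, tU_mul hK, tU_inv hK, tU_mul hK, tU_inv hK, tU_mul hK]
  have e : t + t' + -t + -t' = 0 := by ring
  rw [e]
  exact ⟨_, _, rfl⟩

omit hK in
lemma ree_bound_aux {r q : ℕ} (hr9 : 9 ≤ r) (hrq : r ^ 2 = 3 * q) : 2 * (r + 2) + 2 < q := by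
  have h1 : 9 * r ≤ r ^ 2 := by nlinarith
  omega

/-- The `3`-part of the kernel of a stem extension. -/
theorem ree_three_part (hm : 1 ≤ m) {Δ : Type*} [Group Δ] [Finite Δ] (τ : Δ →* RT K m) (hτ : IsStemExtension τ)
    {z : Δ} (hz : z ∈ τ.ker) (hz3 : z ^ 3 = 1) : z = 1 := by
  classical
  haveI := t_finite hK
  obtain ⟨hs, hcen, hcomm⟩ := hτ
  have h3 : (3 : K) = 0 := ree_three
  choose X hX using fun t : K => hs (tU m t 0 0)
  choose Y hY using fun u : K => hs (tU m 0 u 0)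
  choose W hW using fun v : K => hs (tU m 0 0 v)
  choose D hD using fun β : Kˣ => hs (tH hK β)
  have hcc : ∀ v ∈ τ.ker, ∀ g, g * v = v * g := fun v hv g => Subgroup.mem_center_iff.1 (hcen hv) g
  have hwd : ∀ a a' b b', τ a = τ a' → τ b = τ b' → ⁅a, b⁆ = ⁅a', b'⁆ := by
    intro a a' b b' ha hb
    have h1 : a'⁻¹ * a ∈ τ.ker := by
      rw [MonoidHom.mem_ker, map_mul, map_inv, ha, inv_mul_cancel]
    have h3 : b'⁻¹ * b ∈ τ.ker := by
      rw [MonoidHom.mem_ker, map_mul, map_inv, hb, inv_mul_cancel]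
    have e1 := H19.Hopf.comm_mul_central_left (hcc _ h1) a' (b' * (b'⁻¹ * b))
    have e2 := H19.Hopf.comm_mul_central_right (hcc _ h3) a' b'
    rw [mul_inv_cancel_left, mul_inv_cancel_left] at e1
    rw [mul_inv_cancel_left] at e2
    rw [e1, e2]
  -- bounds
  have hr9 : 9 ≤ 3 ^ (m + 1) := by
    calc 9 = 3 ^ 2 := by norm_num
      _ ≤ 3 ^ (m + 1) := Nat.pow_le_pow_right (by norm_num) (by omega)
  have hrq : (3 ^ (m + 1)) ^ 2 = 3 * 3 ^ (2 * m + 1) := ree_r_sq m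
  have hb : 2 * (3 ^ (m + 1) + 2) + 2 < Fintype.card K := by
    rw [hK]
    exact ree_bound_aux hr9 hrq
  have hb1 : 2 * 1 + 2 < Fintype.card K := by omega
  -- the relations in `G`
  have hWmul : ∀ v v', τ (W v * W v') = τ (W (v + v')) := by
    intro v v'
    rw [map_mul, hW, hW, hW, tU_0uv hK, add_zero]
  have hYmul : ∀ v v', τ (Y v * Y v') = τ (Y (v + v')) := by
    intro v v'
    rw [map_mul, hY, hY, hY, tU_0uv hK, add_zero]
  have hXmul : ∀ t t', τ (X t * X t') = τ (X (t + t') * (Y (-(t * reeF K m t' ^ 3)) * W (t * t' * reeF K m t' ^ 3 - t ^ 2 * reeF K m t' ^ 3))) := by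
    intro t t'
    rw [map_mul, map_mul, map_mul, hX, hX, hX, hY, hW, tU_XYW hK, tU_mul hK]
    congr 1 <;> simp
  have hDW : ∀ (β : Kˣ) v, τ (D β * W v * (D β)⁻¹) = τ (W (reeF K m (β : K) ^ 3 * (β : K) ^ 2 * v)) := by
    intro β v
    rw [map_mul, map_mul, map_inv, hD, hW, hW, tH_conj hK]
    simp
  have hDY : ∀ (β : Kˣ) v, τ (D β * Y v * (D β)⁻¹) = τ (Y (reeF K m (β : K) ^ 3 * (β : K) * v)) := by
    intro β v
    rw [map_mul, map_mul, map_inv, hD, hY, hY, tH_conj hK]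
    simp
  have hDX : ∀ (β : Kˣ) v, τ (D β * X v * (D β)⁻¹) = τ (X ((β : K) * v)) := by
    intro β v
    rw [map_mul, map_mul, map_inv, hD, hX, hX, tH_conj hK]
    simp
  have hconjc : ∀ (β : Kˣ) p q p' q', τ (D β * p * (D β)⁻¹) = τ p' → τ (D β * q * (D β)⁻¹) = τ q' → ⁅p, q⁆ ∈ τ.ker → ⁅p', q'⁆ = ⁅p, q⁆ := by
    intro β p q p' q' h1 h2 h3
    rw [← hwd _ _ _ _ h1 h2, ← conjugate_commutatorElement, hcc _ h3, mul_inv_cancel_right]
  -- the commutators of the root groups in the kernel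
  have hWWk : ∀ v v', ⁅W v, W v'⁆ ∈ τ.ker := by
    intro v v'
    rw [MonoidHom.mem_ker, map_commutatorElement, hW, hW, commutatorElement_eq_one_iff_mul_comm]
    exact tV2_comm hK _ _ _ _
  have hWYk : ∀ v v', ⁅W v, Y v'⁆ ∈ τ.ker := by
    intro v v'
    rw [MonoidHom.mem_ker, map_commutatorElement, hW, hY, commutatorElement_eq_one_iff_mul_comm]
    exact tV2_comm hK _ _ _ _
  have hYYk : ∀ v v', ⁅Y v, Y v'⁆ ∈ τ.ker := by
    intro v v'
    rw [MonoidHom.mem_ker, map_commutatorElement, hY, hY, commutatorElement_eq_one_iff_mul_comm]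
    exact tV2_comm hK _ _ _ _
  have hXWk : ∀ v v', ⁅X v, W v'⁆ ∈ τ.ker := by
    intro v v'
    rw [MonoidHom.mem_ker, map_commutatorElement, hX, hW, tU_comm_XV hK, mul_zero, tU_zero]
  -- (a) the centre is abelian
  have hWW : ∀ v v', ⁅W v, W v'⁆ = 1 := by
    obtain ⟨l, hl0, hl1, hlw⟩ := exists_l_N (F := K) (N := 1) le_rfl hb1
    obtain ⟨β₁, hβ₁⟩ := exists_c2_eq hK (Units.mk0 l hl0)
    obtain ⟨β₂, hβ₂⟩ := exists_c2_eq hK (Units.mk0 (1 - l) hl1)
    simp only [Units.val_mk0] at hβ₁ hβ₂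
    refine comm_form_vanish W W (fun a b => hcen (hWWk a b)) ?_ ?_ (l₁ := l) (l₂ := 1 - l) (f₁ := l) (f₂ := 1 - l) (by ring) hl0 hl1 ?_ ?_ (by simpa using hlw)
    · intro x x' y
      rw [← hwd _ _ _ _ (hWmul x x') rfl]
      exact H19.comm_mul_left_of_central _ _ _ (hcc _ (hWWk x' y))
    · intro x y y'
      rw [← hwd _ _ _ _ rfl (hWmul y y')]
      exact H19.comm_mul_right_of_central _ _ _ (hcc _ (hWWk x y'))
    · intro a b
      have e1 := hDW β₁ a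
      have e2 := hDW β₁ b
      rw [hβ₁] at e1 e2
      exact hconjc β₁ _ _ _ _ e1 e2 (hWWk a b)
    · intro a b
      have e1 := hDW β₂ a
      have e2 := hDW β₂ b
      rw [hβ₂] at e1 e2
      exact hconjc β₂ _ _ _ _ e1 e2 (hWWk a b)
  -- (b)
  have hWY : ∀ v u, ⁅W v, Y u⁆ = 1 := by
    obtain ⟨l, hl0, hl1, hlw⟩ := exists_l_N (F := K) (N := 3 ^ (m + 1) - 1) (by omega) (by omega)
    obtain ⟨β₁, hβ₁, hγ₁⟩ := ree_beta_l hK hl0
    obtain ⟨β₂, hβ₂, hγ₂⟩ := ree_beta_l hK hl1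
    refine comm_form_vanish W Y (fun a b => hcen (hWYk a b)) ?_ ?_ (l₁ := l) (l₂ := 1 - l) (f₁ := l ^ (3 ^ (m + 1) - 1)) (f₂ := (1 - l) ^ (3 ^ (m + 1) - 1)) (by ring) (pow_ne_zero _ hl0) (pow_ne_zero _ hl1) ?_ ?_ hlw
    · intro x x' y
      rw [← hwd _ _ _ _ (hWmul x x') rfl]
      exact H19.comm_mul_left_of_central _ _ _ (hcc _ (hWYk x' y))
    · intro x y y'
      rw [← hwd _ _ _ _ rfl (hYmul y y')]
      exact H19.comm_mul_right_of_central _ _ _ (hcc _ (hWYk x y'))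
    · intro a b
      have e1 := hDW β₁ a
      have e2 := hDY β₁ b
      rw [hβ₁] at e1
      rw [hγ₁] at e2
      exact hconjc β₁ _ _ _ _ e1 e2 (hWYk a b)
    · intro a b
      have e1 := hDW β₂ a
      have e2 := hDY β₂ b
      rw [hβ₂] at e1
      rw [hγ₂] at e2
      exact hconjc β₂ _ _ _ _ e1 e2 (hWYk a b)
  -- (d)
  have hYY : ∀ v u, ⁅Y v, Y u⁆ = 1 := by
    have hcard4 : Fintype.card K % 4 = 3 := by
      rw [hK]
      have := ree_num_mod8 m
      omega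
    obtain ⟨x, y, hx0, hy0, hxy, hw⟩ := exists_sq_pair h3 hcard4 (by omega)
    obtain ⟨β₁, hβ₁⟩ := ree_beta_sq hK hx0
    obtain ⟨β₂, hβ₂⟩ := ree_beta_sq hK hy0
    refine comm_form_vanish Y Y (fun a b => hcen (hYYk a b)) ?_ ?_ hxy (pow_ne_zero _ hx0) (pow_ne_zero _ hy0) ?_ ?_ hw
    · intro x x' y
      rw [← hwd _ _ _ _ (hYmul x x') rfl]
      exact H19.comm_mul_left_of_central _ _ _ (hcc _ (hYYk x' y))
    · intro x y y'
      rw [← hwd _ _ _ _ rfl (hYmul y y')]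
      exact H19.comm_mul_right_of_central _ _ _ (hcc _ (hYYk x y'))
    · intro a b
      have e1 := hDY β₁ a
      have e2 := hDY β₁ b
      rw [hβ₁] at e1 e2
      exact hconjc β₁ _ _ _ _ e1 e2 (hYYk a b)
    · intro a b
      have e1 := hDY β₂ a
      have e2 := hDY β₂ b
      rw [hβ₂] at e1 e2
      exact hconjc β₂ _ _ _ _ e1 e2 (hYYk a b)
  have cWW : ∀ v v', W v * W v' = W v' * W v := fun v v' => commutatorElement_eq_one_iff_mul_comm.1 (hWW v v')
  have cWY : ∀ v v', W v * Y v' = Y v' * W v := fun v v' => commutatorElement_eq_one_iff_mul_comm.1 (hWY v v')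
  have cYY : ∀ v v', Y v * Y v' = Y v' * Y v := fun v v' => commutatorElement_eq_one_iff_mul_comm.1 (hYY v v')
  -- (c)
  have hXW : ∀ t v, ⁅X t, W v⁆ = 1 := by
    obtain ⟨l, hl0, hl1, hlw⟩ := exists_l_N (F := K) (N := 3 ^ (m + 1) + 2) (by omega) hb
    have hf : ∀ (l : K), reeF K m l ^ 3 * l ^ 2 = l ^ (3 ^ (m + 1) + 2) := by
      intro l
      rw [ree_sigma_pow, pow_add l]
    refine comm_form_vanish X W (fun a b => hcen (hXWk a b)) ?_ ?_ (l₁ := l) (l₂ := 1 - l) (f₁ := l ^ (3 ^ (m + 1) + 2)) (f₂ := (1 - l) ^ (3 ^ (m + 1) + 2)) (by ring) (pow_ne_zero _ hl0) (pow_ne_zero _ hl1) ?_ ?_ hlw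
    · intro x x' y
      have e1 := hwd _ _ (W y) (W y) (hXmul x x') rfl
      have e2 : (Y (-(x * reeF K m x' ^ 3)) * W (x * x' * reeF K m x' ^ 3 - x ^ 2 * reeF K m x' ^ 3)) * W y = W y * (Y (-(x * reeF K m x' ^ 3)) * W (x * x' * reeF K m x' ^ 3 - x ^ 2 * reeF K m x' ^ 3)) := by
        rw [mul_assoc, cWW, ← mul_assoc, ← cWY, mul_assoc]
      rw [ree_comm_mul_left_of_commute _ _ _ e2] at e1
      rw [← e1]
      exact H19.comm_mul_left_of_central _ _ _ (hcc _ (hXWk x' y))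
    · intro x y y'
      rw [← hwd _ _ _ _ rfl (hWmul y y')]
      exact H19.comm_mul_right_of_central _ _ _ (hcc _ (hXWk x y'))
    · intro a b
      have e1 := hDX (Units.mk0 l hl0) a
      have e2 := hDW (Units.mk0 l hl0) b
      simp only [Units.val_mk0, hf] at e1 e2
      exact hconjc (Units.mk0 l hl0) _ _ _ _ e1 e2 (hXWk a b)
    · intro a b
      have e1 := hDX (Units.mk0 (1 - l) hl1) a
      have e2 := hDW (Units.mk0 (1 - l) hl1) b
      simp only [Units.val_mk0, hf] at e1 e2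
      exact hconjc (Units.mk0 (1 - l) hl1) _ _ _ _ e1 e2 (hXWk a b)
  have cXW : ∀ t v, X t * W v = W v * X t := fun t v => commutatorElement_eq_one_iff_mul_comm.1 (hXW t v)
  have cXWc : ∀ t v, Commute (X t) (W v) := cXW
  have cWYc : ∀ v u, Commute (W v) (Y u) := cWY
  have cWWc : ∀ v v', Commute (W v) (W v') := cWW
  have cYYc : ∀ v v', Commute (Y v) (Y v') := cYY
  -- subgroups
  let Yh : Subgroup Δ := (tV2 hK).comap τ
  have hYh : ∀ v, v ∈ Yh ↔ ∃ u w, τ v = tU m 0 u w := fun v => Iff.rfl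
  let Uh : Subgroup Δ := (tUU K m).comap τ
  have hUh : ∀ v, v ∈ Uh ↔ ∃ t u w, τ v = tU m t u w := fun v => mem_tUU_iff hK _
  have hYU : Yh ≤ Uh := by
    intro v hv
    obtain ⟨u, w, e⟩ := (hYh v).1 hv
    exact (hUh v).2 ⟨0, u, w, e⟩
  have hYlift : ∀ v u w, τ v = tU m 0 u w → τ v = τ (Y u * W w) := by
    intro v u w e
    rw [e, map_mul, hY, hW, tU_YW hK]
  have hUlift : ∀ v t u w, τ v = tU m t u w → τ v = τ (X t * (Y u * W w)) := by
    intro v t u w e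
    rw [e, map_mul, map_mul, hX, hY, hW, tU_XYW hK]
  have hvv : ∀ y ∈ Yh, ∀ y' ∈ Yh, y * y' = y' * y := by
    intro y hy y' hy'
    obtain ⟨u, w, e⟩ := (hYh y).1 hy
    obtain ⟨u', w', e'⟩ := (hYh y').1 hy'
    rw [← commutatorElement_eq_one_iff_mul_comm, hwd y _ y' _ (hYlift y u w e) (hYlift y' u' w' e'), commutatorElement_eq_one_iff_mul_comm]
    have c1 : Commute (Y u * W w) (Y u' * W w') :=
      Commute.mul_left (Commute.mul_right (cYYc _ _) (cWYc _ _).symm) (Commute.mul_right (cWYc _ _) (cWWc _ _))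
    exact c1
  have hWg : ∀ v, ∀ g ∈ Uh, W v * g = g * W v := by
    intro v g hg
    obtain ⟨t, u, w, e⟩ := (hUh g).1 hg
    rw [← commutatorElement_eq_one_iff_mul_comm, hwd (W v) (W v) g _ rfl (hUlift g t u w e), commutatorElement_eq_one_iff_mul_comm]
    have c1 : Commute (W v) (X t * (Y u * W w)) :=
      Commute.mul_right (cXWc _ _).symm (Commute.mul_right (cWYc _ _) (cWWc _ _))
    exact c1
  have hZc : ∀ e v, τ e = tU m 0 0 v → ∀ g ∈ Uh, e * g = g * e := by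
    intro e v he g hg
    have h1 : τ e = τ (W v) := by rw [he, hW]
    rw [← commutatorElement_eq_one_iff_mul_comm, hwd e (W v) g g h1 rfl, commutatorElement_eq_one_iff_mul_comm]
    exact hWg v g hg
  have hXYz : ∀ t y u w, τ y = tU m 0 u w → τ ⁅X t, y⁆ = tU m 0 0 (t * u) := by
    intro t y u w e
    rw [map_commutatorElement, hX, e, tU_comm_XV hK]
  have hXcomm : ∀ g ∈ Uh, ∀ g' ∈ Uh, ⁅g, g'⁆ ∈ Yh := by
    intro g hg g' hg'
    obtain ⟨t, u, w, e⟩ := (hUh g).1 hg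
    obtain ⟨t', u', w', e'⟩ := (hUh g').1 hg'
    show τ ⁅g, g'⁆ ∈ tV2 hK
    rw [map_commutatorElement, e, e']
    exact tU_comm_mem hK _ _ _ _ _ _
  -- the norm map
  letI iC : CommGroup Yh :=
    { (inferInstance : Group Yh) with
      mul_comm := fun a b => Subtype.ext (hvv a a.2 b b.2) }
  have hcjmem : ∀ (β : Kˣ) v, v ∈ Yh → D β * v * (D β)⁻¹ ∈ Yh := by
    intro β v hv
    obtain ⟨u, w, e⟩ := (hYh v).1 hv
    refine (hYh _).2 ⟨reeF K m (β : K) ^ 3 * (β : K) * u, reeF K m (β : K) ^ 3 * (β : K) ^ 2 * w, ?_⟩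
    rw [map_mul, map_mul, map_inv, hD, e, tH_conj hK, mul_zero]
  let cj : Kˣ → Yh →* Yh := fun β =>
    { toFun := fun v => ⟨D β * v * (D β)⁻¹, hcjmem β v v.2⟩
      map_one' := by
        apply Subtype.ext
        show D β * 1 * (D β)⁻¹ = 1
        group
      map_mul' := by
        intro v v'
        apply Subtype.ext
        show D β * ((v : Δ) * v') * (D β)⁻¹ = (D β * v * (D β)⁻¹) * (D β * v' * (D β)⁻¹)
        group }
  let P : Yh →* Yh := ∏ β : Kˣ, cj β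
  have hP : ∀ v, P v = ∏ β : Kˣ, cj β v := fun v => MonoidHom.finset_prod_apply _ _ _
  have hcj2 : ∀ (β β' : Kˣ) v, cj β' (cj β v) = cj (β' * β) v := by
    intro β β' v
    apply Subtype.ext
    show D β' * (D β * v * (D β)⁻¹) * (D β')⁻¹ = D (β' * β) * v * (D (β' * β))⁻¹
    have hκ : (D (β' * β))⁻¹ * (D β' * D β) ∈ τ.ker := by
      rw [MonoidHom.mem_ker, map_mul, map_mul, map_inv, hD, hD, hD, ← tH_mul hK, inv_mul_cancel]
    set κ := (D (β' * β))⁻¹ * (D β' * D β) with hκdef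
    have e : D β' * D β = D (β' * β) * κ := by
      rw [hκdef]
      group
    calc D β' * (D β * v * (D β)⁻¹) * (D β')⁻¹ = (D β' * D β) * v * (D β' * D β)⁻¹ := by group
      _ = D (β' * β) * (κ * v * κ⁻¹) * (D (β' * β))⁻¹ := by rw [e]; group
      _ = D (β' * β) * (v * κ * κ⁻¹) * (D (β' * β))⁻¹ := by rw [← hcc κ hκ v]
      _ = _ := by rw [mul_inv_cancel_right]
  have hPcj : ∀ (β : Kˣ) v, P (cj β v) = P v := by
    intro β v
    rw [hP, hP]
    exact Fintype.prod_equiv (Equiv.mulRight β) _ _ (fun β' => hcj2 β β' v)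
  -- the commutator maps
  let Xt : K → Uh := fun t => ⟨X t, (hUh _).2 ⟨t, 0, 0, hX t⟩⟩
  let Yt : K → Yh := fun u => ⟨Y u, (hYh _).2 ⟨u, 0, hY u⟩⟩
  let cm : Uh → Uh → Yh := fun g g' => ⟨⁅(g : Δ), (g' : Δ)⁆, hXcomm g g.2 g' g'.2⟩
  let ι : Yh → Uh := fun y => ⟨y, hYU y.2⟩
  let ch1 : K → K → Yh := fun t u => cm (Xt t) (ι (Yt u))
  have hXYc : ∀ t u, ∀ g ∈ Uh, g * ⁅X t, Y u⁆ = ⁅X t, Y u⁆ * g := by
    intro t u g hg
    exact (hZc _ _ (hXYz t (Y u) u 0 (hY u)) g hg).symm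
  have hch1l : ∀ t t' u, ch1 (t + t') u = ch1 t u * ch1 t' u := by
    intro t t' u
    apply Subtype.ext
    show ⁅X (t + t'), Y u⁆ = ⁅X t, Y u⁆ * ⁅X t', Y u⁆
    have e1 := hwd _ _ (Y u) (Y u) (hXmul t t') rfl
    have c1 : Commute (Y (-(t * reeF K m t' ^ 3)) * W (t * t' * reeF K m t' ^ 3 - t ^ 2 * reeF K m t' ^ 3)) (Y u) :=
      Commute.mul_left (cYYc _ _) (cWYc _ _)
    rw [ree_comm_mul_left_of_commute _ _ _ c1] at e1
    rw [← e1, ree_comm_mul_left _ _ _ (hXYc t' u (X t) ((hUh _).2 ⟨t, 0, 0, hX t⟩))]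
    exact hvv _ (hXcomm _ (Xt t').2 _ (ι (Yt u)).2) _ (hXcomm _ (Xt t).2 _ (ι (Yt u)).2)
  have hch1r : ∀ t u u', ch1 t (u + u') = ch1 t u * ch1 t u' := by
    intro t u u'
    apply Subtype.ext
    show ⁅X t, Y (u + u')⁆ = ⁅X t, Y u⁆ * ⁅X t, Y u'⁆
    rw [← hwd (X t) (X t) _ _ rfl (hYmul u u')]
    exact ree_comm_mul_right _ _ _ (hXYc t u' (Y u) (ι (Yt u)).2)
  have hch1inv : ∀ (β : Kˣ) t u, cj β (ch1 t u) = ch1 ((β : K) * t) (reeF K m (β : K) ^ 3 * (β : K) * u) := by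
    intro β t u
    apply Subtype.ext
    show D β * ⁅X t, Y u⁆ * (D β)⁻¹ = ⁅X ((β : K) * t), Y (reeF K m (β : K) ^ 3 * (β : K) * u)⁆
    rw [← hwd _ _ _ _ (hDX β t) (hDY β u), conjugate_commutatorElement]
  have hPch1 : ∀ t u, P (ch1 t u) = 1 := by
    obtain ⟨l, hl0, hl1, hlw⟩ := exists_l_N (F := K) (N := 3 ^ (m + 1) + 1) (by omega) (by omega)
    have hf : ∀ (l : K), reeF K m l ^ 3 * l = l ^ (3 ^ (m + 1) + 1) := by
      intro l
      rw [ree_sigma_pow, pow_succ l]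
    refine form_vanish3 (c := fun t u => P (ch1 t u)) ?_ ?_ (l₁ := l) (l₂ := 1 - l) (f₁ := l ^ (3 ^ (m + 1) + 1)) (f₂ := (1 - l) ^ (3 ^ (m + 1) + 1)) (by ring) (pow_ne_zero _ hl0) (pow_ne_zero _ hl1) ?_ ?_ hlw
    · intro x x' y
      show P (ch1 (x + x') y) = P (ch1 x y) * P (ch1 x' y)
      rw [hch1l, map_mul]
    · intro x y y'
      show P (ch1 x (y + y')) = P (ch1 x y) * P (ch1 x y')
      rw [hch1r, map_mul]
    · intro a b
      show P (ch1 (l * a) (l ^ (3 ^ (m + 1) + 1) * b)) = P (ch1 a b)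
      have := hch1inv (Units.mk0 l hl0) a b
      simp only [Units.val_mk0, hf] at this
      rw [← this, hPcj]
    · intro a b
      show P (ch1 ((1 - l) * a) ((1 - l) ^ (3 ^ (m + 1) + 1) * b)) = P (ch1 a b)
      have := hch1inv (Units.mk0 (1 - l) hl1) a b
      simp only [Units.val_mk0, hf] at this
      rw [← this, hPcj]
  have hι : ∀ (x : Uh) (y : Yh), P (cm x (ι y)) = 1 := by
    intro x y
    obtain ⟨t, u', w', e⟩ := (hUh x).1 x.2
    obtain ⟨u, w, e'⟩ := (hYh y).1 y.2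
    have h1 : cm x (ι y) = ch1 t u := by
      apply Subtype.ext
      show ⁅(x : Δ), (y : Δ)⁆ = ⁅X t, Y u⁆
      rw [hwd (x : Δ) _ (y : Δ) _ (hUlift _ t u' w' e) (hYlift _ u w e')]
      have c1 : Commute (Y u' * W w') (Y u * W w) :=
        Commute.mul_left (Commute.mul_right (cYYc _ _) (cWYc _ _).symm) (Commute.mul_right (cWYc _ _) (cWWc _ _))
      rw [ree_comm_mul_left_of_commute _ _ _ c1]
      exact ree_comm_mul_right_of_commute _ _ _ (cXWc _ _).symm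
    rw [h1]
    exact hPch1 t u
  have hanti : ∀ a b : Uh, cm a b = (cm b a)⁻¹ := by
    intro a b
    apply Subtype.ext
    show ⁅(a : Δ), (b : Δ)⁆ = ⁅(b : Δ), (a : Δ)⁆⁻¹
    rw [commutatorElement_inv]
  have hmul : ∀ x y c : Uh, P (cm (x * y) c) = P (cm y c) * P (cm x c) := by
    intro x y c
    have e : cm (x * y) c = cm x (ι (cm y c)) * cm y c * cm x c := Subtype.ext (ree_comm_triple _ _ _)
    rw [e, map_mul, map_mul, hι, one_mul]
  have hιl : ∀ (y : Yh) (c : Uh), P (cm (ι y) c) = 1 := by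
    intro y c
    rw [hanti, map_inv, hι, inv_one]
  have hwd' : ∀ g g₁ h h₁ : Uh, τ g = τ g₁ → τ h = τ h₁ → cm g h = cm g₁ h₁ := by
    intro g g₁ h h₁ h1 h2
    exact Subtype.ext (hwd _ _ _ _ h1 h2)
  let ch2 : K → K → Yh := fun t s => cm (Xt t) (Xt s)
  have hch2l : ∀ t t' s, P (ch2 (t + t') s) = P (ch2 t s) * P (ch2 t' s) := by
    intro t t' s
    let y₀ : Yh := ⟨Y (-(t * reeF K m t' ^ 3)) * W (t * t' * reeF K m t' ^ 3 - t ^ 2 * reeF K m t' ^ 3),
      (hYh _).2 ⟨_, _, by rw [map_mul, hY, hW, tU_YW hK]⟩⟩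
    have e := hwd' (Xt t * Xt t') (Xt (t + t') * ι y₀) (Xt s) (Xt s) (hXmul t t') rfl
    have e2 := congrArg P e
    rw [hmul, hmul, hιl, one_mul] at e2
    show P (cm (Xt (t + t')) (Xt s)) = _
    rw [← e2]
    exact mul_comm _ _
  have hch2r : ∀ t s s', P (ch2 t (s + s')) = P (ch2 t s) * P (ch2 t s') := by
    intro t s s'
    show P (cm (Xt t) (Xt (s + s'))) = P (cm (Xt t) (Xt s)) * P (cm (Xt t) (Xt s'))
    rw [hanti (Xt t), hanti (Xt t) (Xt s), hanti (Xt t) (Xt s'), map_inv, map_inv, map_inv]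
    have := hch2l s s' t
    rw [show P (cm (Xt (s + s')) (Xt t)) = P (cm (Xt s) (Xt t)) * P (cm (Xt s') (Xt t)) from this, _root_.mul_inv]
  have hch2inv : ∀ (β : Kˣ) t s, cj β (ch2 t s) = ch2 ((β : K) * t) ((β : K) * s) := by
    intro β t s
    apply Subtype.ext
    show D β * ⁅X t, X s⁆ * (D β)⁻¹ = ⁅X ((β : K) * t), X ((β : K) * s)⁆
    rw [← hwd _ _ _ _ (hDX β t) (hDX β s), conjugate_commutatorElement]
  have hPch2 : ∀ t s, P (ch2 t s) = 1 := by
    obtain ⟨l, hl0, hl1, hlw⟩ := exists_l_N (F := K) (N := 1) le_rfl hb1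
    simp only [pow_one] at hlw
    refine form_vanish3 (c := fun t u => P (ch2 t u)) hch2l hch2r (l₁ := l) (l₂ := 1 - l) (f₁ := l) (f₂ := 1 - l) (by ring) hl0 hl1 ?_ ?_ hlw
    · intro a b
      show P (ch2 (l * a) (l * b)) = P (ch2 a b)
      have := hch2inv (Units.mk0 l hl0) a b
      simp only [Units.val_mk0] at this
      rw [← this, hPcj]
    · intro a b
      show P (ch2 ((1 - l) * a) ((1 - l) * b)) = P (ch2 a b)
      have := hch2inv (Units.mk0 (1 - l) hl1) a b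
      simp only [Units.val_mk0] at this
      rw [← this, hPcj]
  -- the decomposition of `Û`
  have hdec : ∀ g : Uh, ∃ t, ∃ y : Yh, g = Xt t * ι y := by
    intro g
    obtain ⟨t, u, w, e⟩ := (hUh g).1 g.2
    refine ⟨t, ⟨(X t)⁻¹ * g, (hYh _).2 ⟨u, w, ?_⟩⟩, ?_⟩
    · rw [map_mul, map_inv, hX, e, inv_mul_eq_iff_eq_mul, tU_mul hK]
      congr 1 <;> simp
    · apply Subtype.ext
      show (g : Δ) = X t * ((X t)⁻¹ * g)
      group
  have hall : ∀ g g' : Uh, P (cm g g') = 1 := by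
    intro g g'
    obtain ⟨t, y, rfl⟩ := hdec g
    obtain ⟨t', y', rfl⟩ := hdec g'
    rw [hmul, hιl, one_mul, hanti, map_inv, hmul, hιl, one_mul, inv_eq_one]
    exact hPch2 t' t
  -- the conclusion
  have hzY : z ∈ Yh := (hYh z).2 ⟨0, 0, by rw [MonoidHom.mem_ker.1 hz, tU_zero]⟩
  have hPz : P ⟨z, hzY⟩ = ⟨z, hzY⟩ ^ (2 * reeH m) := by
    have h1 : ∀ β : Kˣ, cj β ⟨z, hzY⟩ = ⟨z, hzY⟩ := by
      intro β
      apply Subtype.ext
      show D β * z * (D β)⁻¹ = z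
      rw [hcc z hz, mul_inv_cancel_right]
    rw [hP]
    simp only [h1]
    rw [Finset.prod_const, Finset.card_univ, Fintype.card_units, hK]
    congr 1
    have := reeH_spec m
    omega
  obtain ⟨h5, h6⟩ := H09.transfer_central Uh (hcomm hz) (hcen hz)
  have hle : commutator Uh ≤ ((P.ker).map Yh.subtype).subgroupOf Uh := by
    rw [commutator_def, Subgroup.commutator_le]
    intro g _ g' _
    rw [Subgroup.mem_subgroupOf]
    exact ⟨cm g g', hall g g', rfl⟩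
  have h7 := hle h6
  rw [Subgroup.mem_subgroupOf] at h7
  obtain ⟨v, hv, hvz⟩ := h7
  have h8 : v = ⟨z, hzY⟩ ^ Uh.index := Subtype.ext hvz
  have h9 : P v = 1 := hv
  rw [h8, map_pow, hPz, ← pow_mul] at h9
  have h10 : z ^ (2 * reeH m * Uh.index) = 1 := congrArg Subtype.val h9
  have hidx : Uh.index = 2 * reeH m * (4 * reeN m * reeDD m) := by
    rw [show Uh = (tUU K m).comap τ from rfl, Subgroup.index_comap_of_surjective _ hs]
    exact index_tUU hK
  have hcop : Nat.Coprime 3 (2 * reeH m * Uh.index) := by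
    rw [hidx]
    have c1 : Nat.Coprime 3 (2 * reeH m) := (Nat.Coprime.coprime_dvd_right (ree_three_dvd m) (reeH_cop_q m)).symm
    have c2 : Nat.Coprime 3 (reeN m) := (Nat.Coprime.coprime_dvd_right (ree_three_dvd m) (reeN_cop_q m)).symm
    have c3 : Nat.Coprime 3 (reeDD m) := (Nat.Coprime.coprime_dvd_right (ree_three_dvd m) (reeD_cop_q m)).symm
    have c4 : Nat.Coprime 3 4 := by norm_num
    exact c1.mul_right (c1.mul_right ((c4.mul_right c2).mul_right c3))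
  have h11 := Nat.dvd_gcd (orderOf_dvd_of_pow_eq_one hz3) (orderOf_dvd_of_pow_eq_one h10)
  rw [hcop, Nat.dvd_one, orderOf_eq_one_iff] at h11
  exact h11

end Cfsg.Agent.H10
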