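import Cfsg.Agent.Lib.H10.ReeMult2

/-!
# The Schur multiplier of the small Ree groups
-/

set_option autoImplicit false
set_option linter.style.longLine false
set_option linter.unusedSimpArgs false
set_option linter.unusedSectionVars false
set_option linter.style.haveILetI false
set_option maxRecDepth 100000

open Cfsg Cfsg.Lie Cfsg.Agent.H04.Chev Matrix
open scoped MatrixGroups commutatorElement Pointwise

namespace Cfsg.Agent.H10

lemma bpow_commute {G : Type*} [Group G] {p q : G} (h : Commute p q) (i j : Bool) : Commute (bpow p i) (bpow q j) := by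
  cases i <;> cases j <;> simp [bpow, h]

lemma bpow_map {G H : Type*} [Group G] [Group H] (f : G →* H) (p : G) (i : Bool) : f (bpow p i) = bpow (f p) i := by
  cases i <;> simp [bpow]

variable {K : Type*} [Field K] [CharP K 3] {m : ℕ} [Fintype K] (hK : Fintype.card K = 3 ^ (2 * m + 1))

include hK

/-- Lifts of the standard elementary abelian subgroup of order eight commute. -/
theorem ree_S0_lift_comm {Δ : Type*} [Group Δ] (τ : Δ →* RT K m) (hτ : IsStemExtension τ) {S₀ : Subgroup (RT K m)}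
    (hform : ∀ x ∈ S₀, ∃ i j k : Bool, x = bpow (tA hK) i * bpow (tW K m) j * bpow (tJ hK) k) {x y : Δ} (hx : τ x ∈ S₀) (hy : τ y ∈ S₀) :
    x * y = y * x := by
  obtain ⟨hs, hcen, hcomm⟩ := hτ
  obtain ⟨A, hA⟩ := hs (tA hK)
  obtain ⟨W, hW⟩ := hs (tW K m)
  obtain ⟨J, hJ⟩ := hs (tJ hK)
  obtain ⟨Y, hY⟩ := hs (tG7 K m)
  have hcc : ∀ v ∈ τ.ker, ∀ g, g * v = v * g := fun v hv g => Subgroup.mem_center_iff.1 (hcen hv) g
  have hwd : ∀ a a' b b', τ a = τ a' → τ b = τ b' → ⁅a, b⁆ = ⁅a', b'⁆ := by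
    intro a a' b b' ha hb
    have h1 : a'⁻¹ * a ∈ τ.ker := by
      rw [MonoidHom.mem_ker, map_mul, map_inv, ha, inv_mul_cancel]
    have h3 : b'⁻¹ * b ∈ τ.ker := by
      rw [MonoidHom.mem_ker, map_mul, map_inv, hb, inv_mul_cancel]
    have e1 := H19.Hopf.comm_mul_central_left (hcc _ h1) a' (b' * (b'⁻¹ * b))
    have e2 := H19.Hopf.comm_mul_central_right (hcc _ h3) a' b'
    rw [mul_inv_cancel_left, mul_inv_cancel_left] at e1
    rw [mul_inv_cancel_left] at e2
    rw [e1, e2]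
  have hAW : tA hK * tW K m = tW K m * tA hK := tK0_comm hK (tA_mem_tK0 hK) (tW_mem_tK0 hK)
  have hAJ : tA hK * tJ hK = tJ hK * tA hK := a_comm_tSL hK _
  have hWJ : tW K m * tJ hK = tJ hK * tW K m := tW_tJ_comm hK
  have r1 : τ (Y * A * Y⁻¹) = τ W := by
    rw [map_mul, map_mul, map_inv, hY, hA, hW]
    exact mul_inv_eq_of_eq_mul (tG7_A hK)
  have r2 : τ (Y * W * Y⁻¹) = τ (W * J) := by
    rw [map_mul, map_mul, map_inv, map_mul, hY, hJ, hW]
    exact mul_inv_eq_of_eq_mul (tG7_W hK)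
  have r3 : τ (Y * J * Y⁻¹) = τ (A * J) := by
    rw [map_mul, map_mul, map_inv, map_mul, hY, hJ, hA]
    exact mul_inv_eq_of_eq_mul (tG7_J hK)
  have kk : ∀ p q : Δ, τ p * τ q = τ q * τ p → ⁅p, q⁆ ∈ τ.ker := by
    intro p q h
    rw [MonoidHom.mem_ker, map_commutatorElement, commutatorElement_eq_one_iff_mul_comm]
    exact h
  have k1 : τ A * τ W = τ W * τ A := by rw [hA, hW]; exact hAW
  have k2 : τ W * τ J = τ J * τ W := by rw [hJ, hW]; exact hWJ
  have k3 : τ A * τ J = τ J * τ A := by rw [hA, hJ]; exact hAJ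
  have hc : ∀ p q p' q', τ (Y * p * Y⁻¹) = τ p' → τ (Y * q * Y⁻¹) = τ q' → ⁅p, q⁆ ∈ τ.ker → ⁅p', q'⁆ = ⁅p, q⁆ := by
    intro p q p' q' h1 h2 h3
    rw [← hwd _ _ _ _ h1 h2, ← conjugate_commutatorElement, hcc _ h3, mul_inv_cancel_right]
  -- `t₂ = t₁`
  have e1 : ⁅W, J⁆ = ⁅A, W⁆ := by
    have h1 := hc A W W (W * J) r1 r2 (kk _ _ k1)
    rwa [H19.comm_mul_right_of_central _ _ _ (hcc _ (kk _ _ k2)), commutatorElement_self, one_mul] at h1
  -- `t₃ = 1`
  have e3 : ⁅J, A⁆ = 1 := by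
    have h1 := hc J A (A * J) W r3 r1 (kk _ _ k3.symm)
    rw [H19.comm_mul_left_of_central _ _ _ (hcc _ (kk _ _ k2.symm)), ← commutatorElement_inv W J, e1, mul_inv_cancel] at h1
    exact h1.symm
  have c3 : J * A = A * J := commutatorElement_eq_one_iff_mul_comm.1 e3
  have hAJ' : τ A * τ J * τ A = τ A * (τ J * τ A) := mul_assoc _ _ _
  -- `t₁ = 1`
  have e2 : ⁅W, A⁆ = 1 := by
    have h1 := hc W J (W * J) (A * J) r2 r3 (kk _ _ k2)
    have h2 : τ J * τ (A * J) = τ (A * J) * τ J := by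
      rw [map_mul, ← mul_assoc, ← k3]
    have h3 : τ W * τ (A * J) = τ (A * J) * τ W := by
      rw [map_mul, ← mul_assoc, ← k1, mul_assoc, k2, mul_assoc]
    rw [H19.comm_mul_left_of_central _ _ _ (hcc _ (kk _ _ h2)), H19.comm_mul_right_of_central _ _ _ (hcc _ (kk _ _ k2)),
      H19.comm_mul_right_of_central _ _ _ (hcc _ (kk _ _ (by rfl))), e3, commutatorElement_self, mul_one, mul_one] at h1
    exact mul_eq_right.1 h1
  have c1 : W * A = A * W := commutatorElement_eq_one_iff_mul_comm.1 e2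
  have e4 : ⁅W, J⁆ = 1 := by
    rw [e1, ← commutatorElement_inv W A, e2, inv_one]
  have c2 : W * J = J * W := commutatorElement_eq_one_iff_mul_comm.1 e4
  -- the general case
  obtain ⟨i, j, k, ex⟩ := hform _ hx
  obtain ⟨i', j', k', ey⟩ := hform _ hy
  have hlx : τ x = τ (bpow A i * bpow W j * bpow J k) := by
    rw [ex, map_mul, map_mul, bpow_map, bpow_map, bpow_map, hA, hW, hJ]
  have hly : τ y = τ (bpow A i' * bpow W j' * bpow J k') := by
    rw [ey, map_mul, map_mul, bpow_map, bpow_map, bpow_map, hA, hW, hJ]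
  rw [← commutatorElement_eq_one_iff_mul_comm, hwd _ _ _ _ hlx hly, commutatorElement_eq_one_iff_mul_comm]
  have cAW : Commute A W := c1.symm
  have cWJ : Commute W J := c2
  have cAJ : Commute A J := c3.symm
  have hgen : ∀ a b c a' b' c' : Bool, Commute (bpow A a * bpow W b * bpow J c) (bpow A a' * bpow W b' * bpow J c') := by
    intro a b c a' b' c'
    refine Commute.mul_left (Commute.mul_left ?_ ?_) ?_
    · exact Commute.mul_right (Commute.mul_right (bpow_commute (Commute.refl A) _ _) (bpow_commute cAW _ _)) (bpow_commute cAJ _ _)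
    · exact Commute.mul_right (Commute.mul_right (bpow_commute cAW.symm _ _) (bpow_commute (Commute.refl W) _ _)) (bpow_commute cWJ _ _)
    · exact Commute.mul_right (Commute.mul_right (bpow_commute cAJ.symm _ _) (bpow_commute cWJ.symm _ _)) (bpow_commute (Commute.refl J) _ _)
  exact hgen _ _ _ _ _ _

/-- The Sylow `2`-subgroups of a stem extension are abelian. -/
theorem ree_sylow2_comm {Δ : Type*} [Group Δ] [Finite Δ] (τ : Δ →* RT K m) (hτ : IsStemExtension τ) (R : Sylow 2 Δ) {a b : Δ}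
    (ha : a ∈ R) (hb : b ∈ R) : a * b = b * a := by
  haveI := t_finite hK
  obtain ⟨S₀, h8, -, -, -, -, hform⟩ := exists_S0 hK
  have hp : IsPGroup 2 ((R : Subgroup Δ).map τ) := R.isPGroup'.map τ
  obtain ⟨c, hc⟩ := exists_conj_S0 hK h8 hp
  obtain ⟨d, hd⟩ := hτ.1 c
  have key : ∀ x ∈ (R : Subgroup Δ), τ (d * x * d⁻¹) ∈ S₀ := by
    intro x hx
    apply hc
    refine ⟨τ x, ⟨x, hx, rfl⟩, ?_⟩
    rw [map_mul, map_mul, map_inv, hd]
    rfl
  have h1 := ree_S0_lift_comm hK τ hτ hform (key a ha) (key b hb)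
  have e1 : d * a * d⁻¹ * (d * b * d⁻¹) = d * (a * b) * d⁻¹ := by group
  have e2 : d * b * d⁻¹ * (d * a * d⁻¹) = d * (b * a) * d⁻¹ := by group
  rw [e1, e2] at h1
  exact mul_left_cancel (mul_right_cancel h1)

/-- The Schur multiplier of the small Ree groups. -/
theorem ree_ker_eq_bot (hm : 1 ≤ m) {Δ : Type*} [Group Δ] [Finite Δ] (τ : Δ →* RT K m) (hτ : IsStemExtension τ) : τ.ker = ⊥ := by
  haveI := t_finite hK
  refine H09.ker_eq_bot_of_local τ hτ ?_
  intro r hr R z hzR hord hzk hzZ hzC hzc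
  have hab : (∀ a b : (R : Subgroup Δ), a * b = b * a) → z = 1 := by
    intro hcomm
    have hbot : commutator ↥(R : Subgroup Δ) = ⊥ := by
      rw [commutator_eq_closure, Subgroup.closure_eq_bot_iff]
      rintro _ ⟨a, b, rfl⟩
      rw [Set.mem_singleton_iff, commutatorElement_eq_one_iff_mul_comm]
      exact hcomm a b
    rw [hbot, Subgroup.mem_bot] at hzc
    exact congrArg Subtype.val hzc
  by_cases hr3 : r = 3
  · subst hr3
    apply ree_three_part hK hm τ hτ hzk
    rw [← hord]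
    exact pow_orderOf_eq_one z
  by_cases hr2 : r = 2
  · subst hr2
    apply hab
    intro a b
    exact Subtype.ext (ree_sylow2_comm hK τ hτ R a.2 b.2)
  · have hr5 : 3 < r := by
      have := hr.out.two_le
      omega
    obtain ⟨P, hP⟩ := (R.isPGroup'.map τ).exists_le_sylow
    haveI := ree_sylow_cyclic hK hr5 P
    haveI : IsCyclic ↥((R : Subgroup Δ).map τ) := Subgroup.isCyclic_of_le hP
    have hker : (τ.subgroupMap (R : Subgroup Δ)).ker ≤ Subgroup.center ↥(R : Subgroup Δ) := by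
      intro x hx
      rw [Subgroup.mem_center_iff]
      intro y
      apply Subtype.ext
      have h1 : τ x = 1 := congrArg Subtype.val (MonoidHom.mem_ker.1 hx)
      exact Subgroup.mem_center_iff.1 (hτ.2.1 (MonoidHom.mem_ker.2 h1)) y
    have hcomm := commutative_of_cyclic_center_quotient (τ.subgroupMap (R : Subgroup Δ)) hker
    exact hab hcomm

end Cfsg.Agent.H10
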