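import Cfsg.Agent.Lib.H10.StCount2

/-!
# The count of `p`-elements: summation
-/

set_option autoImplicit false
set_option linter.style.haveILetI false
set_option linter.unusedSimpArgs false
set_option linter.unusedSectionVars false
set_option linter.unusedVariables false

open Cfsg.Lie Cfsg.Agent.H04.Chev MulAction Cfsg

namespace Cfsg.Agent.H10

variable {D : ChevalleyDatum} {T : Tabs} {U : Tabs3}

/-- the number of `p`-elements of a standard parabolic subgroup -/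
noncomputable def UnGL (D : ChevalleyDatum) (F : Type*) [Field F] (p : ℕ) (K : Set ℕ) : ℕ :=
  Nat.card {g : GL D.Idx F // g ∈ D.parabolicSubgroup F K ∧ IsPE p g}

lemma para_mono (F : Type*) [Field F] {K K' : Set ℕ} (h : K ⊆ K') : D.parabolicSubgroup F K ≤ D.parabolicSubgroup F K' := by
  unfold Cfsg.Lie.ChevalleyDatum.parabolicSubgroup
  refine sup_le_sup le_rfl (Subgroup.closure_mono ?_)
  rintro g ⟨j, hj, h1, h2⟩
  exact ⟨j, h hj, h1, h2⟩

section
variable (C : Checks D T) (C2 : Checks2 D T) (C3 : Checks3 D T U)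
variable (F : Type*) [Field F]

variable (R : Finset ℕ) (hR : ∀ s ∈ R, s < D.rank) (A : Subgroup (GL D.Idx F))
  (hA : A = D.parabolicSubgroup F (↑R : Set ℕ))

include C C2 C3 hR hA in
/-- `idx * |U_R| = q ^ N` -/
theorem card_Bw_mul [Fintype F] (z : Equiv.Perm (Fin D.nroots)) (hz : z ∈ WJ C (↑R : Set ℕ)) (hzn : NoAsc C (↑R : Set ℕ) z) :
    Nat.card (↥(borelIn (D := D) A) ⧸ Bw (borelIn (D := D) A) (repA C C2 C3 R hR A hA ⟨z, hz⟩)) *
      Nat.card (RS C (RJ D (↑R : Set ℕ)) F) = Fintype.card F ^ (D.nroots / 2) := by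
  classical
  have hR' : ∀ s ∈ (↑R : Set ℕ), s < D.rank := hR
  have hzW := WW_of_WJ C hR' hz
  have hsp := repN_spec C C3 F hzW
  have hBA := borel_le_A R A hA
  have h1 := Subgroup.card_eq_card_quotient_mul_card_subgroup (Bw (borelIn (D := D) A) (repA C C2 C3 R hR A hA ⟨z, hz⟩))
  have h2 : Nat.card ↥(borelIn (D := D) A) = Nat.card (D.borelSubgroup F) :=
    Nat.card_congr (Subgroup.subgroupOfEquivOfLe hBA).toEquiv
  have hUJU : RS C (RJ D (↑R : Set ℕ)) F ≤ D.posUnipotent F := RS_le_U C C2 (fun r _ hr => ((C2.pos_iff _).mp hr.1).1)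
  have h3 : Nat.card ↥(Bw (borelIn (D := D) A) (repA C C2 C3 R hR A hA ⟨z, hz⟩)) =
      Nat.card (RS C (RJ D (↑R : Set ℕ)) F) * Nat.card (D.diagonalSubgroup F) := by
    rw [← Nat.card_prod]
    symm
    let Φ : ↥(RS C (RJ D (↑R : Set ℕ)) F) × ↥(D.diagonalSubgroup F) → ↥(Bw (borelIn (D := D) A) (repA C C2 C3 R hR A hA ⟨z, hz⟩)) := fun s =>
      ⟨⟨⟨s.1.1 * s.2.1, hBA (mul_mem (U_le_B (hUJU s.1.2)) (H_le_B s.2.2))⟩, mul_mem (U_le_B (hUJU s.1.2)) (H_le_B s.2.2)⟩, by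
        rw [mem_Bw]
        show (repN C F z)⁻¹ * (s.1.1 * s.2.1) * repN C F z ∈ D.borelSubgroup F
        have e : (repN C F z)⁻¹ * (s.1.1 * s.2.1) * repN C F z = ((repN C F z)⁻¹ * s.1.1 * repN C F z) * ((repN C F z)⁻¹ * s.2.1 * repN C F z) := by group
        rw [e]
        refine mul_mem ((stabU C2 C3 hR' hz hzn hsp (hUJU s.1.2)).mpr s.1.2) (H_le_B ?_)
        have := N_conj_H C C3 (inv_mem hsp.1) s.2.2
        simpa only [inv_inv] using this⟩
    apply Nat.card_congr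
    refine Equiv.ofBijective Φ ⟨?_, ?_⟩
    · rintro ⟨⟨a, ha⟩, ⟨h, hh⟩⟩ ⟨⟨a', ha'⟩, ⟨h', hh'⟩⟩ e
      have e1 : a * h = a' * h' := congrArg (fun x => x.1.1.1) e
      have e2 : a'⁻¹ * a = h' * h⁻¹ := by
        have : a = a' * h' * h⁻¹ := by rw [← e1]; group
        rw [this]; group
      have h4 : a'⁻¹ * a ∈ D.posUnipotent F ⊓ D.diagonalSubgroup F :=
        Subgroup.mem_inf.mpr ⟨mul_mem (inv_mem (hUJU ha')) (hUJU ha), e2 ▸ mul_mem hh' (inv_mem hh)⟩
      rw [pos_inf_H C C2 C3, Subgroup.mem_bot] at h4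
      have h5 : a' = a := by
        have := mul_eq_one_iff_eq_inv.mp h4
        exact inv_injective this
      subst h5
      have h6 : h = h' := mul_left_cancel e1
      subst h6
      rfl
    · rintro ⟨⟨⟨x, hxA⟩, hxB⟩, hx⟩
      have hxB' : x ∈ D.borelSubgroup F := hxB
      have hx' : (repN C F z)⁻¹ * x * repN C F z ∈ D.borelSubgroup F := hx
      obtain ⟨u, hu, h, hh, rfl⟩ := (mem_borel_iff C C2 C3).mp hxB'
      have h4 : (repN C F z)⁻¹ * u * repN C F z ∈ D.borelSubgroup F := by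
        have e : (repN C F z)⁻¹ * u * repN C F z = ((repN C F z)⁻¹ * (u * h) * repN C F z) * ((repN C F z)⁻¹ * h * repN C F z)⁻¹ := by group
        rw [e]
        refine mul_mem hx' (inv_mem (H_le_B ?_))
        have := N_conj_H C C3 (inv_mem hsp.1) hh
        simpa only [inv_inv] using this
      have h5 := (stabU C2 C3 hR' hz hzn hsp hu).mp h4
      exact ⟨⟨⟨u, h5⟩, ⟨h, hh⟩⟩, rfl⟩
  rw [h2, h3, card_borel C C2 C3] at h1
  have hpos : 0 < Nat.card (D.diagonalSubgroup F) := Nat.card_pos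
  apply Nat.eq_of_mul_eq_mul_right hpos
  rw [h1]
  ring

open Classical in
include C C2 C3 hR hA in
/-- the sum of the alternating function over the `p`-elements -/
theorem sum_altA [Fintype F] (p : ℕ) [Fact p.Prime]
    (hpe : ∀ a ∈ D.posUnipotent F, IsPE p a)
    (hQp : IsPGroup p ((D.posUnipotent F).subgroupOf A)) (hidx : ¬ p ∣ ((D.posUnipotent F).subgroupOf A).index)
    (z : Equiv.Perm (Fin D.nroots)) (hz : z ∈ WJ C (↑R : Set ℕ)) (hzn : NoAsc C (↑R : Set ℕ) z)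
    [Fintype {u : ↥A // IsPE p u}] :
    ∑ u : {u : ↥A // IsPE p u}, altA F R A u.1 = (Fintype.card F : ℂ) ^ (D.nroots / 2) := by
  have hUJU : RS C (RJ D (↑R : Set ℕ)) F ≤ D.posUnipotent F := RS_le_U C C2 (fun r _ hr => ((C2.pos_iff _).mp hr.1).1)
  have hBA := borel_le_A R A hA
  have h0 : ∀ u : {u : ↥A // IsPE p u}, altA F R A u.1 = _ := fun u =>
    altA_pe C C2 C3 F R hR A hA p hQp hidx z hz hzn u.1 u.2
  simp only [h0]
  rw [← Finset.sum_filter, Finset.sum_const, nsmul_eq_mul]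
  have h1 : (Finset.univ.filter fun u : {u : ↥A // IsPE p u} => u.1.1 ∈ RS C (RJ D (↑R : Set ℕ)) F).card =
      Nat.card (RS C (RJ D (↑R : Set ℕ)) F) := by
    rw [← Fintype.card_subtype, ← Nat.card_eq_fintype_card]
    apply Nat.card_congr
    exact {
      toFun := fun s => ⟨s.1.1.1, s.2⟩
      invFun := fun s => ⟨⟨⟨s.1, hBA (U_le_B (hUJU s.2))⟩, isPE_subgroup.mpr (hpe _ (hUJU s.2))⟩, s.2⟩
      left_inv := fun s => rfl
      right_inv := fun s => rfl }
  rw [h1, mul_comm]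
  have h2 := card_Bw_mul C C2 C3 F R hR A hA z hz hzn
  exact_mod_cast h2

include C C2 C3 hR hA in
/-- the key identity -/
theorem key_sum [Fintype F] (p : ℕ) [Fact p.Prime]
    (hpe : ∀ a ∈ D.posUnipotent F, IsPE p a)
    (hQp : IsPGroup p ((D.posUnipotent F).subgroupOf A)) (hidx : ¬ p ∣ ((D.posUnipotent F).subgroupOf A).index)
    (z : Equiv.Perm (Fin D.nroots)) (hz : z ∈ WJ C (↑R : Set ℕ)) (hzn : NoAsc C (↑R : Set ℕ) z) :
    ∑ K ∈ R.powerset, (-1 : ℂ) ^ K.card * ((Nat.card (↥A ⧸ (D.parabolicSubgroup F (↑K : Set ℕ)).subgroupOf A) : ℂ) *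
      (UnGL D F p (↑K : Set ℕ) : ℂ)) = (Fintype.card F : ℂ) ^ (D.nroots / 2) := by
  classical
  haveI : Fintype {u : ↥A // IsPE p u} := Fintype.ofFinite _
  rw [← sum_altA C C2 C3 F R hR A hA p hpe hQp hidx z hz hzn]
  unfold altA
  rw [Finset.sum_comm]
  refine Finset.sum_congr rfl fun K hK => ?_
  rw [← Finset.mul_sum]
  congr 1
  have h1 := sum_fix_pe ((D.parabolicSubgroup F (↑K : Set ℕ)).subgroupOf A) p
  have hKR : (↑K : Set ℕ) ⊆ (↑R : Set ℕ) := by exact_mod_cast Finset.mem_powerset.mp hK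
  have h2 : Nat.card {g : ↥A // g ∈ (D.parabolicSubgroup F (↑K : Set ℕ)).subgroupOf A ∧ IsPE p g} = UnGL D F p (↑K : Set ℕ) := by
    unfold UnGL
    apply Nat.card_congr
    exact {
      toFun := fun s => ⟨s.1.1, s.2.1, isPE_subgroup.mp s.2.2⟩
      invFun := fun s => ⟨⟨s.1, hA ▸ para_mono F hKR s.2.1⟩, s.2.1, isPE_subgroup.mpr s.2.2⟩
      left_inv := fun s => rfl
      right_inv := fun s => rfl }
  rw [h2] at h1
  exact_mod_cast h1.symm

end

end Cfsg.Agent.H10
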