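import Cfsg.Agent.Lib.H10.StCount3

/-!
# The count of `p`-elements: Steinberg's theorem
-/

set_option autoImplicit false
set_option linter.style.haveILetI false
set_option linter.unusedSimpArgs false
set_option linter.unusedSectionVars false
set_option linter.unusedVariables false

open Cfsg.Lie Cfsg.Agent.H04.Chev MulAction Cfsg

namespace Cfsg.Agent.H10

variable {D : ChevalleyDatum} {T : Tabs} {U : Tabs3}

lemma card_fix_one {G : Type*} [Group G] (S : Subgroup G) : Nat.card (fixedBy (G ⧸ S) (1 : G)) = Nat.card (G ⧸ S) :=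
  card_fixedBy_one

section
variable (C : Checks D T) (C2 : Checks2 D T) (C3 : Checks3 D T U)
variable (F : Type*) [Field F]

variable (R : Finset ℕ) (hR : ∀ s ∈ R, s < D.rank) (A : Subgroup (GL D.Idx F))
  (hA : A = D.parabolicSubgroup F (↑R : Set ℕ))

include C C2 C3 hR hA in
/-- the size of a `B`-orbit -/
theorem card_quot_Bw [Fintype F] (x : ↥(WJ C (↑R : Set ℕ))) :
    Nat.card (↥(borelIn (D := D) A) ⧸ Bw (borelIn (D := D) A) (repA C C2 C3 R hR A hA x)) = Fintype.card F ^ invP x.1 := by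
  classical
  have hR' : ∀ s ∈ (↑R : Set ℕ), s < D.rank := hR
  have hxW := WW_of_WJ C hR' x.2
  have hsp := repN_spec C C3 F hxW
  have hBA := borel_le_A R A hA
  obtain ⟨_, π', d, c⟩ := hsp.inv
  have h1 := card_Rminus C C2 C3 c
  rw [cntR_eq_invP, invP_inv C C2 hxW] at h1
  rw [← h1]
  symm
  have hRS : RS C (Rminus D (piOf x.1⁻¹)) F ≤ D.borelSubgroup F := (RS_le_U C C2 (fun r _ hr => hr.1)).trans U_le_B
  let Ψ : ↥(RS C (Rminus D (piOf x.1⁻¹)) F) → ↥(borelIn (D := D) A) ⧸ Bw (borelIn (D := D) A) (repA C C2 C3 R hR A hA x) := fun a =>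
    ((⟨⟨a.1, hBA (hRS a.2)⟩, hRS a.2⟩ : ↥(borelIn (D := D) A)) : ↥(borelIn (D := D) A) ⧸ Bw (borelIn (D := D) A) (repA C C2 C3 R hR A hA x))
  apply Nat.card_congr
  refine Equiv.ofBijective Ψ ⟨?_, ?_⟩
  · rintro ⟨a, ha⟩ ⟨a', ha'⟩ e
    have h2 := QuotientGroup.eq.mp e
    have h3 : (repN C F x.1)⁻¹ * (a⁻¹ * a') * repN C F x.1 ∈ D.borelSubgroup F := h2
    have h4 := stab_inj C2 C3 hsp (mul_mem (inv_mem ha) ha') h3
    have h5 : a = a' := by
      have := mul_eq_one_iff_eq_inv.mp h4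
      exact inv_injective this
    subst h5
    rfl
  · intro q
    induction q using QuotientGroup.induction_on with
    | H b =>
    obtain ⟨a, ha, c', hc', h3, e⟩ := stab_dec C2 C3 hsp (b := b.1.1) b.2
    refine ⟨⟨a, ha⟩, ?_⟩
    apply QuotientGroup.eq.mpr
    show (repN C F x.1)⁻¹ * (a⁻¹ * b.1.1) * repN C F x.1 ∈ D.borelSubgroup F
    rw [e, inv_mul_cancel_left]
    exact h3

include C C2 C3 hR hA in
/-- the index of a parabolic subgroup as a sum over minimal coset representatives -/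
theorem idx_eq_sum [Fintype F] (K : Finset ℕ) (hKR : K ⊆ R) [Fintype {w : ↥(WJ C (↑R : Set ℕ)) // K ⊆ ascS C R w.1}] :
    Nat.card (↥A ⧸ (D.parabolicSubgroup F (↑K : Set ℕ)).subgroupOf A) =
      ∑ w : {w : ↥(WJ C (↑R : Set ℕ)) // K ⊆ ascS C R w.1}, Fintype.card F ^ invP w.1.1 := by
  have h1 := fix_sum C C2 C3 R hR A hA K hKR (1 : ↥(borelIn (D := D) A))
  have e : (((1 : ↥(borelIn (D := D) A)) : ↥A)) = 1 := rfl
  rw [e, card_fix_one] at h1
  rw [h1]
  refine Finset.sum_congr rfl fun w _ => ?_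
  rw [card_fix_one, card_quot_Bw C C2 C3 F R hR A hA w.1]

/-- the descents in `R` -/
noncomputable def descS (R : Finset ℕ) (w : Equiv.Perm (Fin D.nroots)) : Finset ℕ := by
  classical
  exact R.filter fun i => ∀ hi : i < D.rank, (w (sF C hi)).1 < D.nroots / 2

lemma subset_descS_iff {R K : Finset ℕ} (hKR : K ⊆ R) {w : Equiv.Perm (Fin D.nroots)} :
    K ⊆ descS C R w ↔ NoAsc C (↑K : Set ℕ) w := by
  classical
  unfold descS
  constructor
  · intro h i hi hiK
    exact (Finset.mem_filter.mp (h hiK)).2 hi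
  · intro h i hiK
    exact Finset.mem_filter.mpr ⟨hKR hiK, fun hi => h i hi hiK⟩

include C2 C3 in
lemma descS_eq_empty {R : Finset ℕ} (hR : ∀ s ∈ R, s < D.rank) {w : Equiv.Perm (Fin D.nroots)} (hw : w ∈ WJ C (↑R : Set ℕ)) :
    descS C R w = ∅ ↔ w = 1 := by
  classical
  unfold descS
  rw [Finset.filter_eq_empty_iff]
  have hR' : ∀ s ∈ (↑R : Set ℕ), s < D.rank := hR
  constructor
  · intro h
    apply min_eq_one C C2 C3 hR' hw
    intro i hi hiR
    by_contra hcon
    exact h hiR (fun _ => not_le.mp hcon)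
  · rintro rfl i hiR hcon
    have := hcon (hR i hiR)
    have h2 := sF_pos C C3 (hR i hiR)
    simp only [Equiv.Perm.coe_one, id] at this
    omega

lemma invP_one : invP (1 : Equiv.Perm (Fin D.nroots)) = 0 := by
  classical
  rw [invP_eq_card, Finset.card_eq_zero, Finset.eq_empty_iff_forall_notMem]
  intro r hr
  rw [mem_invS] at hr
  simp only [Equiv.Perm.coe_one, id] at hr
  omega

include C2 C3 in
/-- additivity of the length -/
lemma invP_mul_kmin {K : Set ℕ} (hK : ∀ s ∈ K, s < D.rank) {x z : Equiv.Perm (Fin D.nroots)} (hx : x ∈ WW C)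
    (hm : KMin C K x) (hz : z ∈ WJ C K) : invP (x * z) = invP x + invP z := by
  have hzW := WW_of_WJ C hK hz
  obtain ⟨l, hl, hlE⟩ := exists_word C (inv_mem hx)
  have hl' : ∀ i ∈ l, i < D.rank := hl
  have h1 : wordP C l.reverse = x := by
    rw [wordP_reverse, ← hlE, inv_inv]
  have h2 := invP_mul_min C2 C3 hK (inv_mem hz) hl' (by
    intro s hs
    have hs' := hK s hs
    have hl2 : ∀ i ∈ l.reverse, i < D.rank := fun i hi => hl' i (List.mem_reverse.mp hi)
    rw [← sF_val C hs', ← wordP_apply C hl2, h1]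
    exact hm s hs' hs)
  rw [← hlE, invP_inv C C2 hzW, invP_inv C C2 hx] at h2
  have e : z⁻¹ * x⁻¹ = (x * z)⁻¹ := by group
  rw [e, invP_inv C C2 (mul_mem hx hzW)] at h2
  omega

include C C2 C3 hR hA in
/-- the combinatorial identity -/
theorem alt_idx_sum [Fintype F] (z : Finset ℕ → Equiv.Perm (Fin D.nroots))
    (hz : ∀ K ⊆ R, z K ∈ WJ C (↑K : Set ℕ) ∧ NoAsc C (↑K : Set ℕ) (z K)) :
    ∑ K ∈ R.powerset, (-1 : ℂ) ^ K.card * ((Nat.card (↥A ⧸ (D.parabolicSubgroup F (↑K : Set ℕ)).subgroupOf A) : ℂ) *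
      (Fintype.card F : ℂ) ^ invP (z K)) = 1 := by
  classical
  have hR' : ∀ s ∈ (↑R : Set ℕ), s < D.rank := hR
  haveI : Fintype ↥(WJ C (↑R : Set ℕ)) := Fintype.ofFinite _
  set q := Fintype.card F with hq
  have h1 : ∀ K ∈ R.powerset, (-1 : ℂ) ^ K.card * ((Nat.card (↥A ⧸ (D.parabolicSubgroup F (↑K : Set ℕ)).subgroupOf A) : ℂ) *
      (q : ℂ) ^ invP (z K)) = (-1 : ℂ) ^ K.card * ∑ w : {w : ↥(WJ C (↑R : Set ℕ)) // K ⊆ descS C R w.1},
        (fun w : ↥(WJ C (↑R : Set ℕ)) => (q : ℂ) ^ invP w.1) w.1 := by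
    intro K hK
    have hKR := Finset.mem_powerset.mp hK
    have hKR' : (↑K : Set ℕ) ⊆ (↑R : Set ℕ) := by exact_mod_cast hKR
    have hK' : ∀ s ∈ (↑K : Set ℕ), s < D.rank := fun s hs => hR' s (hKR' hs)
    congr 1
    rw [idx_eq_sum C C2 C3 F R hR A hA K hKR]
    push_cast
    rw [Finset.sum_mul]
    obtain ⟨hzK, hzn⟩ := hz K hKR
    have hzW := WW_of_WJ C hK' hzK
    have hzR : z K ∈ WJ C (↑R : Set ℕ) := WJ_mono C hKR' hzK
    have hzinv := noAsc_inv C C2 C3 hK' hzK hzn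
    let e : {w : ↥(WJ C (↑R : Set ℕ)) // K ⊆ ascS C R w.1} ≃ {w : ↥(WJ C (↑R : Set ℕ)) // K ⊆ descS C R w.1} :=
      { toFun := fun x => ⟨⟨x.1.1 * z K, mul_mem x.1.2 hzR⟩, by
          rw [subset_descS_iff C hKR]
          intro i hi hiK
          have hm := (subset_ascS_iff C hKR hR).mp x.2
          exact kmin_neg C C2 C3 hK' (WW_of_WJ C hR' x.1.2) hm (hzn i hi hiK) (supK_WJ C C2 C3 hK' hzK (supK_simple C3 hi hiK))⟩
        invFun := fun w => ⟨⟨w.1.1 * (z K)⁻¹, mul_mem w.1.2 (inv_mem hzR)⟩, by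
          rw [subset_ascS_iff C hKR hR]
          intro i hi hiK
          have hn := (subset_descS_iff C hKR).mp w.2
          have hwW := WW_of_WJ C hR' w.1.2
          have h2 := hzinv i hi hiK
          have h3 : SupK U D (↑K : Set ℕ) ((z K)⁻¹ (sF C hi)).1 := supK_WJ C C2 C3 hK' (inv_mem hzK) (supK_simple C3 hi hiK)
          have h4 := noAsc_neg C C2 C3 hK' hwW hn (t := nF ((z K)⁻¹ (sF C hi))) (negF_pos C2 h2) (supK_neg C3 ((z K)⁻¹ (sF C hi)).2 h3)
          have h5 : (w.1.1 (nF (nF ((z K)⁻¹ (sF C hi))))).1 = negF D (w.1.1 (nF ((z K)⁻¹ (sF C hi)))) := W_neg C hwW _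
          have h6 : nF (nF ((z K)⁻¹ (sF C hi))) = (z K)⁻¹ (sF C hi) := Fin.ext (negF_negF C2 ((z K)⁻¹ (sF C hi)).2)
          rw [h6] at h5
          show D.nroots / 2 ≤ (w.1.1 ((z K)⁻¹ (sF C hi))).1
          rw [h5]
          exact negF_pos C2 h4⟩
        left_inv := fun x => by
          apply Subtype.ext
          apply Subtype.ext
          show x.1.1 * z K * (z K)⁻¹ = x.1.1
          group
        right_inv := fun w => by
          apply Subtype.ext
          apply Subtype.ext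
          show w.1.1 * (z K)⁻¹ * z K = w.1.1
          group }
    refine Fintype.sum_equiv e _ _ ?_
    intro x
    show (q : ℂ) ^ invP x.1.1 * (q : ℂ) ^ invP (z K) = (q : ℂ) ^ invP (x.1.1 * z K)
    rw [invP_mul_kmin C C2 C3 hK' (WW_of_WJ C hR' x.1.2) ((subset_ascS_iff C hKR hR).mp x.2) hzK, pow_add]
  rw [Finset.sum_congr rfl h1]
  have h2 := sum_powerset_asc R (fun w : ↥(WJ C (↑R : Set ℕ)) => descS C R w.1)
    (fun w => by classical exact Finset.filter_subset _ _) (fun w : ↥(WJ C (↑R : Set ℕ)) => (q : ℂ) ^ invP w.1)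
  rw [h2]
  have h10 : descS C R (1 : Equiv.Perm (Fin D.nroots)) = ∅ := (descS_eq_empty C C2 C3 hR (one_mem _)).mpr rfl
  rw [Finset.sum_eq_single (⟨⟨1, one_mem _⟩, h10⟩ : {w : ↥(WJ C (↑R : Set ℕ)) // descS C R w.1 = ∅})]
  · show (q : ℂ) ^ invP (1 : Equiv.Perm (Fin D.nroots)) = 1
    rw [invP_one, pow_zero]
  · rintro ⟨⟨y, hy⟩, hy0⟩ _ hne
    exfalso
    apply hne
    have := (descS_eq_empty C C2 C3 hR hy).mp hy0
    subst this
    rfl
  · intro h
    exact absurd (Finset.mem_univ _) h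

end

section
variable (C : Checks D T) (C2 : Checks2 D T) (C3 : Checks3 D T U)
variable (F : Type*) [Field F] [Fintype F] (p : ℕ) [hp : Fact p.Prime] [CharP F p]

include C C2 C3 in
theorem count_pe (hS : ∃ P : Sylow p ↥(D.group F), (P : Subgroup ↥(D.group F)) = (D.posUnipotent F).subgroupOf (D.group F)) :
    Nat.card {g : ↥(D.group F) // ∃ k : ℕ, orderOf g = p ^ k} = Fintype.card F ^ (2 * (D.nroots / 2)) := by
  classical
  have hpp : p.Prime := hp.out
  obtain ⟨f, hq⟩ : ∃ f : ℕ, Fintype.card F = p ^ f := by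
    obtain ⟨n, h1, h2⟩ := FiniteField.card F p
    exact ⟨n, h2⟩
  have hUcard : Nat.card (D.posUnipotent F) = Fintype.card F ^ (D.nroots / 2) := card_posUnipotent C C2
  have hpe : ∀ a ∈ D.posUnipotent F, IsPE p a := by
    intro a ha
    have h1 : orderOf (⟨a, ha⟩ : ↥(D.posUnipotent F)) ∣ Nat.card (D.posUnipotent F) := orderOf_dvd_natCard _
    rw [hUcard, hq, ← pow_mul] at h1
    obtain ⟨k, _, hk⟩ := (Nat.dvd_prime_pow hpp).mp h1
    exact ⟨k, by rw [← hk, Subgroup.orderOf_mk]⟩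
  -- a family of longest elements
  have hex : ∀ K : Finset ℕ, ∃ y : Equiv.Perm (Fin D.nroots), K ⊆ Finset.range D.rank →
      y ∈ WJ C (↑K : Set ℕ) ∧ NoAsc C (↑K : Set ℕ) y := by
    intro K
    by_cases hK : K ⊆ Finset.range D.rank
    · obtain ⟨y, h1, h2⟩ := exists_noAsc C C2 C3 (K := (↑K : Set ℕ)) (fun s hs => Finset.mem_range.mp (hK hs))
      exact ⟨y, fun _ => ⟨h1, h2⟩⟩
    · exact ⟨1, fun h => absurd h hK⟩
  choose z hz using hex
  obtain ⟨P, hP⟩ := hS
  have hGidx : ¬ p ∣ ((D.posUnipotent F).subgroupOf (D.group F)).index := by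
    rw [← hP]
    exact P.not_dvd_index
  have main : ∀ R : Finset ℕ, R ⊆ Finset.range D.rank →
      (UnGL D F p (↑R : Set ℕ) : ℂ) = (Fintype.card F : ℂ) ^ (D.nroots / 2) * (Fintype.card F : ℂ) ^ invP (z R) := by
    intro R
    induction R using Finset.strongInduction with
    | H R ih =>
    intro hRr
    have hR : ∀ s ∈ R, s < D.rank := fun s hs => Finset.mem_range.mp (hRr hs)
    set A := D.parabolicSubgroup F (↑R : Set ℕ) with hAdef
    have hUA : D.posUnipotent F ≤ A := U_le_B.trans B_le_para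
    have hAG : A ≤ D.group F := para_le_group C C2 C3 F _
    have hQp : IsPGroup p ((D.posUnipotent F).subgroupOf A) := by
      intro g
      obtain ⟨k, hk⟩ := hpe g.1.1 g.2
      refine ⟨k, ?_⟩
      rw [← hk]
      apply Subtype.ext
      apply Subtype.ext
      simp only [Subgroup.coe_pow, Subgroup.coe_one]
      exact pow_orderOf_eq_one _
    have hidx : ¬ p ∣ ((D.posUnipotent F).subgroupOf A).index := by
      intro hd
      apply hGidx
      have h1 := Subgroup.card_mul_index ((D.posUnipotent F).subgroupOf A)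
      have h2 := Subgroup.card_mul_index ((D.posUnipotent F).subgroupOf (D.group F))
      have h3 : Nat.card ↥((D.posUnipotent F).subgroupOf A) = Nat.card (D.posUnipotent F) :=
        Nat.card_congr (Subgroup.subgroupOfEquivOfLe hUA).toEquiv
      have h4 : Nat.card ↥((D.posUnipotent F).subgroupOf (D.group F)) = Nat.card (D.posUnipotent F) :=
        Nat.card_congr (Subgroup.subgroupOfEquivOfLe (U_le_group C)).toEquiv
      obtain ⟨c, hc⟩ := Subgroup.card_dvd_of_le hAG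
      rw [h3] at h1
      rw [h4] at h2
      have hpos : 0 < Nat.card (D.posUnipotent F) := Nat.card_pos
      have h5 : ((D.posUnipotent F).subgroupOf (D.group F)).index = ((D.posUnipotent F).subgroupOf A).index * c := by
        apply Nat.eq_of_mul_eq_mul_left hpos
        rw [h2, hc, ← h1]
        ring
      rw [h5]
      exact Dvd.dvd.mul_right hd c
    obtain ⟨hz1, hz2⟩ := hz R hRr
    have h1 := key_sum C C2 C3 F R hR A hAdef p hpe hQp hidx (z R) hz1 hz2
    have h2 := alt_idx_sum C C2 C3 F R hR A hAdef z (fun K hK => hz K (hK.trans hRr))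
    have h3 : ∑ K ∈ R.powerset, (-1 : ℂ) ^ K.card * ((Nat.card (↥A ⧸ (D.parabolicSubgroup F (↑K : Set ℕ)).subgroupOf A) : ℂ) *
        ((UnGL D F p (↑K : Set ℕ) : ℂ) - (Fintype.card F : ℂ) ^ (D.nroots / 2) * (Fintype.card F : ℂ) ^ invP (z K))) = 0 := by
      have h4 : ∀ K ∈ R.powerset, (-1 : ℂ) ^ K.card * ((Nat.card (↥A ⧸ (D.parabolicSubgroup F (↑K : Set ℕ)).subgroupOf A) : ℂ) *
          ((UnGL D F p (↑K : Set ℕ) : ℂ) - (Fintype.card F : ℂ) ^ (D.nroots / 2) * (Fintype.card F : ℂ) ^ invP (z K))) =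
          (-1 : ℂ) ^ K.card * ((Nat.card (↥A ⧸ (D.parabolicSubgroup F (↑K : Set ℕ)).subgroupOf A) : ℂ) * (UnGL D F p (↑K : Set ℕ) : ℂ)) -
          (Fintype.card F : ℂ) ^ (D.nroots / 2) * ((-1 : ℂ) ^ K.card * ((Nat.card (↥A ⧸ (D.parabolicSubgroup F (↑K : Set ℕ)).subgroupOf A) : ℂ) *
            (Fintype.card F : ℂ) ^ invP (z K))) := by
        intro K _
        ring
      rw [Finset.sum_congr rfl h4, Finset.sum_sub_distrib, h1, ← Finset.mul_sum, h2]
      ring
    rw [Finset.sum_eq_single R] at h3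
    · have h5 : (-1 : ℂ) ^ R.card ≠ 0 := pow_ne_zero _ (by norm_num)
      have h6 : (Nat.card (↥A ⧸ (D.parabolicSubgroup F (↑R : Set ℕ)).subgroupOf A) : ℂ) ≠ 0 := by
        exact_mod_cast Nat.card_pos.ne'
      have h7 := (mul_eq_zero.mp ((mul_eq_zero.mp h3).resolve_left h5)).resolve_left h6
      exact sub_eq_zero.mp h7
    · intro K hK hne
      have hss : K ⊂ R := Finset.ssubset_iff_subset_ne.mpr ⟨Finset.mem_powerset.mp hK, hne⟩
      rw [ih K hss (hss.subset.trans hRr), sub_self, mul_zero, mul_zero]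
    · intro h
      exact absurd (Finset.mem_powerset_self R) h
  have h0 := main (Finset.range D.rank) (Finset.Subset.refl _)
  -- `invP z = N`
  obtain ⟨hz1, hz2⟩ := hz (Finset.range D.rank) (Finset.Subset.refl _)
  have h1 := card_quot_Bw C C2 C3 F (Finset.range D.rank) hR₀ (D.group F) (para_all C C2 C3 F) ⟨_, hz1⟩
  rw [Bw_w0 C C2 C3 F hz1 hz2, card_borel_quot C C2 C3 F] at h1
  have h2 : (Fintype.card F : ℂ) ^ invP (z (Finset.range D.rank)) = (Fintype.card F : ℂ) ^ (D.nroots / 2) := by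
    exact_mod_cast h1.symm
  rw [h2] at h0
  have h3 : UnGL D F p (↑(Finset.range D.rank) : Set ℕ) = Fintype.card F ^ (2 * (D.nroots / 2)) := by
    have : (UnGL D F p (↑(Finset.range D.rank) : Set ℕ) : ℂ) = ((Fintype.card F ^ (2 * (D.nroots / 2)) : ℕ) : ℂ) := by
      rw [h0]
      push_cast
      ring
    exact_mod_cast this
  rw [← h3]
  unfold UnGL
  apply Nat.card_congr
  have hG := para_all C C2 C3 F
  exact {
    toFun := fun s => ⟨s.1.1, hG ▸ s.1.2, isPE_subgroup.mp s.2⟩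
    invFun := fun s => ⟨⟨s.1, hG.symm ▸ s.2.1⟩, isPE_subgroup.mpr s.2.2⟩
    left_inv := fun s => rfl
    right_inv := fun s => rfl }

end

end Cfsg.Agent.H10
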