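import Cfsg.Agent.Lib.H10.StFit2
import Cfsg.Agent.Lib.H13.CharP

/-!
# The generalized Fitting subgroup of a proper parabolic subgroup
-/

set_option autoImplicit false
set_option linter.style.haveILetI false
set_option linter.unusedSimpArgs false
set_option linter.unusedSectionVars false
set_option linter.unusedVariables false

open Cfsg.Lie Cfsg.Agent.H04.Chev

namespace Cfsg.Agent.H10

variable {D : ChevalleyDatum} {T : Tabs} {U : Tabs3}

section
variable (C : Checks D T) (C2 : Checks2 D T) (C3 : Checks3 D T U)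
variable {F : Type*} [Field F]

omit [Field F] in
lemma para_trunc [Field F] (J : Set ℕ) : D.parabolicSubgroup F J = D.parabolicSubgroup F {i | i ∈ J ∧ i < D.rank} := by
  unfold Cfsg.Lie.ChevalleyDatum.parabolicSubgroup
  congr 2
  ext g
  constructor
  · rintro ⟨j, h1, h2, h3⟩
    exact ⟨j, ⟨h1, h2⟩, h2, h3⟩
  · rintro ⟨j, h1, h2, h3⟩
    exact ⟨j, h1.1, h2, h3⟩

include C C2 C3 in
/-- Proper parabolic subgroups have characteristic `p`. -/
theorem para_charP [Fintype F] (p : ℕ) [Fact p.Prime] [CharP F p] {J : Set ℕ} (hJ : ∀ s ∈ J, s < D.rank)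
    (hJ' : ∃ j, j < D.rank ∧ j ∉ J) : Cfsg.Agent.H13.IsCharP p ↥(D.parabolicSubgroup F J) := by
  classical
  have hpp : p.Prime := Fact.out
  obtain ⟨f, hq⟩ : ∃ f : ℕ, Fintype.card F = p ^ f := by
    obtain ⟨n, h1, h2⟩ := FiniteField.card F p
    exact ⟨n, h2⟩
  have hUp : IsPGroup p ↥(D.posUnipotent F) := by
    apply IsPGroup.of_card (n := f * (D.nroots / 2))
    rw [card_posUnipotent C C2, hq, pow_mul]
  have hle : RS C (RJ D J) F ≤ D.parabolicSubgroup F J :=
    (RS_le_U C C2 (fun r _ hr => ((C2.pos_iff _).mp hr.1).1)).trans (U_le_B.trans B_le_para)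
  let Q : Subgroup ↥(D.parabolicSubgroup F J) := (RS C (RJ D J) F).subgroupOf (D.parabolicSubgroup F J)
  have hQn : Q.Normal := by
    constructor
    intro n hn g
    have h1 := para_le_normalizer C C2 C3 (F := F) J g.2
    rw [UJ_eq C J] at h1
    exact (Subgroup.mem_normalizer_iff.mp h1 n.1).mp hn
  have hQp : IsPGroup p ↥Q := by
    have h1 : IsPGroup p ↥(RS C (RJ D J) F) := hUp.to_le (RS_le_U C C2 (fun r _ hr => ((C2.pos_iff _).mp hr.1).1))
    exact h1.of_equiv (Subgroup.subgroupOfEquivOfLe hle).symm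
  have hQle : Q ≤ Cfsg.pCore p ↥(D.parabolicSubgroup F J) := Cfsg.Agent.H01.le_pCore hQn hQp
  intro x hx
  apply hQle
  have hc : CentJ C F J x.1 := by
    refine ⟨x.2, ?_⟩
    intro u hu
    have h1 : (⟨u, hle hu⟩ : ↥(D.parabolicSubgroup F J)) ∈ Cfsg.pCore p ↥(D.parabolicSubgroup F J) := hQle hu
    have h2 := (Subgroup.mem_centralizer_iff.mp hx) _ h1
    have h3 := congrArg Subtype.val h2
    simp only [Subgroup.coe_mul] at h3
    rw [← h3]
    group
  exact cent_radical C C2 C3 hJ hJ' hc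

include C C2 C3 in
/-- **The generalized Fitting subgroup of a proper parabolic subgroup** is a `p`-group. -/
theorem para_fstar [Fintype F] (p : ℕ) [Fact p.Prime] [CharP F p] {J : Set ℕ}
    (hJ' : ∃ j, j < D.rank ∧ j ∉ J) : IsPGroup p ↥(Cfsg.generalizedFittingSubgroup ↥(D.parabolicSubgroup F J)) := by
  rw [para_trunc J]
  have h1 : ∃ j, j < D.rank ∧ j ∉ {i | i ∈ J ∧ i < D.rank} := by
    obtain ⟨j, hj, hjJ⟩ := hJ'
    exact ⟨j, hj, fun h => hjJ h.1⟩
  have h2 := para_charP C C2 C3 (F := F) p (J := {i | i ∈ J ∧ i < D.rank}) (fun s hs => hs.2) h1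
  rw [Cfsg.Agent.H13.fstar_eq_pCore_iff.mpr h2]
  exact Cfsg.Agent.H01.pCore_isPGroup p

end

end Cfsg.Agent.H10
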