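import Cfsg.Agent.Lib.H10.StT2
import Cfsg.Agent.Lib.H22.DefectZero

/-!
# The Steinberg character vanishes on `p`-singular elements
-/

set_option autoImplicit false
set_option linter.style.haveILetI false
set_option linter.unusedSimpArgs false
set_option linter.unusedSectionVars false
set_option linter.unusedVariables false

open Cfsg.Lie Cfsg.Agent.H04.Chev MulAction Cfsg

namespace Cfsg.Agent.H10

variable {D : ChevalleyDatum} {T : Tabs} {U : Tabs3}

section
variable (C : Checks D T) (C2 : Checks2 D T) (C3 : Checks3 D T U)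
variable (F : Type*) [Field F] [Fintype F]

include C C2 C3 in
/-- **S2328** -/
theorem steinberg_vanish (p : ℕ) [hp : Fact p.Prime]
    (hS : ∃ P : Sylow p ↥(D.group F), (P : Subgroup ↥(D.group F)) = (D.posUnipotent F).subgroupOf (D.group F))
    (g : ↥(D.group F)) (hg : p ∣ orderOf g) : D.steinbergCharacter F g = 0 := by
  classical
  haveI : Fintype ↥(D.group F) := Fintype.ofFinite _
  haveI : Fintype (IrrCharacter ↥(D.group F)) := Fintype.ofFinite _
  have hirr := steinberg_irr C C2 C3 F
  have hχ := Cfsg.Agent.H21.isCharacter_of_irr hirr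
  have hdeg : charDegree (D.steinbergCharacter F) = Fintype.card F ^ (D.nroots / 2) := by
    have h1 := Cfsg.Agent.H21.one_eq_charDegree hχ
    rw [steinberg_degree C C2 C3 F] at h1
    exact_mod_cast h1.symm
  obtain ⟨M, hM⟩ := Cfsg.Agent.H21.exists_pModular hp.out
  haveI : M.IsPrime := hM.2.1.isPrime
  refine Cfsg.Agent.H22.irr_eq_zero_of_defect_zero hM (⟨D.steinbergCharacter F, hirr⟩ : IrrCharacter ↥(D.group F)) ?_ hg
  show ¬ p ∣ Nat.card ↥(D.group F) / charDegree (D.steinbergCharacter F)
  rw [hdeg]
  obtain ⟨P, hP⟩ := hS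
  have hcardP : Nat.card P = Fintype.card F ^ (D.nroots / 2) := by
    rw [← card_posUnipotent (F := F) C C2]
    have : Nat.card (P : Subgroup ↥(D.group F)) = Nat.card ((D.posUnipotent F).subgroupOf (D.group F)) := by rw [hP]
    exact this.trans (Nat.card_congr (Subgroup.subgroupOfEquivOfLe (U_le_group C)).toEquiv)
  have h1 := Subgroup.card_mul_index (P : Subgroup ↥(D.group F))
  have hq : 0 < Fintype.card F ^ (D.nroots / 2) := pow_pos Fintype.card_pos _
  have h2 : Nat.card ↥(D.group F) / Fintype.card F ^ (D.nroots / 2) = (P : Subgroup ↥(D.group F)).index := by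
    rw [← h1]
    have : Nat.card (P : Subgroup ↥(D.group F)) = Fintype.card F ^ (D.nroots / 2) := hcardP
    rw [this, Nat.mul_div_cancel_left _ hq]
  rw [h2]
  exact P.not_dvd_index

end

end Cfsg.Agent.H10
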