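import Mathlib
import Cfsg.Agent.Lib.H10.SzMax3
import Cfsg.Agent.Lib.H09.SL2Mult

/-! The Schur multiplier of the Suzuki groups. -/

set_option autoImplicit false
set_option linter.unusedSectionVars false
set_option linter.unusedSimpArgs false
set_option linter.style.haveILetI false

namespace Cfsg.Agent.H10

open Matrix Cfsg
open scoped commutatorElement

/-- Biadditive forms with a semi-invariance vanish. -/
lemma form_vanish {F : Type*} [Field F] {Z : Type*} [CommGroup Z] {c : F → F → Z} (h2 : (2 : F) = 0)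
    (hl : ∀ x x' y, c (x + x') y = c x y * c x' y) (hr : ∀ x y y', c x (y + y') = c x y * c x y')
    {φ : F → F} (hinv : ∀ l a b, l ≠ 0 → c (l * a) (φ l * b) = c a b) (hφ : ∀ l, l ≠ 0 → φ l ≠ 0)
    {l₀ : F} (h0 : l₀ ≠ 0) (h1 : l₀ + 1 ≠ 0) (hw : 1 + (φ l₀)⁻¹ + (φ (l₀ + 1))⁻¹ ≠ 0) : ∀ a b, c a b = 1 := by
  have hsq : ∀ a b, c a b * c a b = 1 := by
    intro a b
    rw [← hr]
    have : b + b = 0 := by linear_combination b * h2
    rw [this]
    exact H09.form_zero_right hr a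
  have hs : ∀ l a b, l ≠ 0 → c (l * a) b = c a ((φ l)⁻¹ * b) := by
    intro l a b hl0
    have := hinv l a ((φ l)⁻¹ * b) hl0
    rwa [mul_inv_cancel_left₀ (hφ l hl0)] at this
  set w := 1 + (φ l₀)⁻¹ + (φ (l₀ + 1))⁻¹ with hwdef
  have key : ∀ a b, c a (w * b) = 1 := by
    intro a b
    have e : w * b = b + (φ l₀)⁻¹ * b + (φ (l₀ + 1))⁻¹ * b := by
      rw [hwdef]
      ring
    rw [e, hr, hr, ← hs _ _ _ h0, ← hs _ _ _ h1, mul_assoc, ← hl]
    have e2 : l₀ * a + (l₀ + 1) * a = a := by linear_combination l₀ * a * h2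
    rw [e2, hsq]
  intro a b
  have := key a (w⁻¹ * b)
  rwa [mul_inv_cancel_left₀ hw] at this

variable {F : Type*} [Field F] [Fintype F] [CharP F 2] {m : ℕ}

/-- A value for the torus form. -/
lemma exists_l_one (h2 : (2 : F) = 0) (hq : 4 < Fintype.card F) :
    ∃ l₀ : F, l₀ ≠ 0 ∧ l₀ + 1 ≠ 0 ∧ 1 + l₀⁻¹ + (l₀ + 1)⁻¹ ≠ 0 := by
  classical
  let P : Polynomial F := Polynomial.X * (Polynomial.X + 1) * (Polynomial.X ^ 2 + Polynomial.X + 1)
  have hdeg : P.natDegree = 4 := by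
    simp only [P]
    compute_degree!
  have hne : P ≠ 0 := Polynomial.ne_zero_of_natDegree_gt (n := 0) (by omega)
  have hlt : P.natDegree < Fintype.card F := by omega
  obtain ⟨u, hu⟩ := Polynomial.exists_eval_ne_zero_of_natDegree_lt_card P hne (by simpa using hlt)
  simp only [P, Polynomial.eval_mul, Polynomial.eval_add, Polynomial.eval_X, Polynomial.eval_one,
    Polynomial.eval_pow] at hu
  have hu0 : u ≠ 0 := fun h => hu (by simp [h])
  have hu1 : u + 1 ≠ 0 := fun h => hu (by simp [h])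
  have hu2 : u ^ 2 + u + 1 ≠ 0 := fun h => hu (by simp [h])
  refine ⟨u, hu0, hu1, fun h => hu2 ?_⟩
  have e : (1 + u⁻¹ + (u + 1)⁻¹) * (u * (u + 1)) = u ^ 2 + u + 1 + 2 * u := by
    field_simp
    ring
  rw [h, zero_mul, h2, zero_mul, add_zero] at e
  exact e.symm

/-- A value for the mixed form: here the hypothesis `m ≥ 2` is essential. -/
lemma exists_l_sigma (h2m : 2 ≤ m) (hF : Fintype.card F = 2 ^ (2 * m + 1)) :
    ∃ l₀ : F, l₀ ≠ 0 ∧ l₀ + 1 ≠ 0 ∧ 1 + (l₀ ^ (2 ^ (m + 1) + 1))⁻¹ + ((l₀ + 1) ^ (2 ^ (m + 1) + 1))⁻¹ ≠ 0 := by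
  classical
  set N := 2 ^ (m + 1) + 1 with hN
  let R : Polynomial F := (Polynomial.X * (Polynomial.X + 1)) ^ N + (Polynomial.X + 1) ^ N + Polynomial.X ^ N
  let P : Polynomial F := Polynomial.X * (Polynomial.X + 1) * R
  have hR0 : R.eval 0 = 1 := by
    simp only [R, Polynomial.eval_add, Polynomial.eval_pow, Polynomial.eval_mul, Polynomial.eval_X, Polynomial.eval_one]
    have : N ≠ 0 := by positivity
    simp [this]
  have hR : R ≠ 0 := by
    intro h
    rw [h] at hR0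
    simp at hR0
  have hX1 : (Polynomial.X + 1 : Polynomial F) ≠ 0 := Polynomial.X_add_C_ne_zero (1 : F)
  have hP : P ≠ 0 := mul_ne_zero (mul_ne_zero Polynomial.X_ne_zero hX1) hR
  have hdeg : P.natDegree ≤ 2 * N + 2 := by
    simp only [P, R]
    compute_degree
    all_goals omega
  have hbound : 2 * N + 2 < 2 ^ (2 * m + 1) := by
    have h1 : 2 * m + 1 = (m + 1) + m := by ring
    rw [h1, pow_add]
    have h3 : 4 ≤ 2 ^ m := by
      calc 4 = 2 ^ 2 := by norm_num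
        _ ≤ 2 ^ m := Nat.pow_le_pow_right (by norm_num) h2m
    have h4 : 8 ≤ 2 ^ (m + 1) := by
      calc 8 = 2 ^ 3 := by norm_num
        _ ≤ 2 ^ (m + 1) := Nat.pow_le_pow_right (by norm_num) (by omega)
    rw [hN]
    nlinarith
  have hlt : P.natDegree < Fintype.card F := by
    rw [hF]
    omega
  obtain ⟨u, hu⟩ := Polynomial.exists_eval_ne_zero_of_natDegree_lt_card P hP (by simpa using hlt)
  simp only [P, R, Polynomial.eval_mul, Polynomial.eval_add, Polynomial.eval_X, Polynomial.eval_one,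
    Polynomial.eval_pow] at hu
  have hu0 : u ≠ 0 := fun h => hu (by simp [h])
  have hu1 : u + 1 ≠ 0 := fun h => hu (by simp [h])
  have hu2 : (u * (u + 1)) ^ N + (u + 1) ^ N + u ^ N ≠ 0 := fun h => hu (by simp [h])
  refine ⟨u, hu0, hu1, fun h => hu2 ?_⟩
  have h3 : u ^ N ≠ 0 := pow_ne_zero _ hu0
  have h4 : (u + 1) ^ N ≠ 0 := pow_ne_zero _ hu1
  have e : (1 + (u ^ N)⁻¹ + ((u + 1) ^ N)⁻¹) * (u ^ N * (u + 1) ^ N) = (u * (u + 1)) ^ N + (u + 1) ^ N + u ^ N := by
    rw [mul_pow]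
    field_simp
  rw [h, zero_mul] at e
  exact e.symm

lemma comm_mul_left_of_commute {G : Type*} [Group G] (u v k : G) (h : v * k = k * v) : ⁅u * v, k⁆ = ⁅u, k⁆ := by
  rw [commutatorElement_def, commutatorElement_def]
  calc u * v * k * (u * v)⁻¹ * k⁻¹ = u * (v * k) * v⁻¹ * u⁻¹ * k⁻¹ := by group
    _ = u * (k * v) * v⁻¹ * u⁻¹ * k⁻¹ := by rw [h]
    _ = _ := by group

lemma comm_mul_right_of_commute {G : Type*} [Group G] (u v k : G) (h : v * k = k * v) : ⁅k, u * v⁆ = ⁅k, u⁆ := by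
  rw [← commutatorElement_inv, comm_mul_left_of_commute u v k h, commutatorElement_inv]

lemma comm_mul_left_of_comm {G : Type*} [Group G] (g h k : G) (hc : g * ⁅h, k⁆ = ⁅h, k⁆ * g) :
    ⁅g * h, k⁆ = ⁅h, k⁆ * ⁅g, k⁆ := by
  have : ⁅g * h, k⁆ = g * ⁅h, k⁆ * g⁻¹ * ⁅g, k⁆ := by
    simp only [commutatorElement_def]
    group
  rw [this, hc, mul_inv_cancel_right]

/-- The `2`-part of the kernel of a stem extension. -/
theorem sz_two_part (h2m : 2 ≤ m) (hF : Fintype.card F = 2 ^ (2 * m + 1)) {Δ : Type*} [Group Δ] [Finite Δ]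
    (τ : Δ →* ↥(Sz F m)) (hτ : IsStemExtension τ) {z : Δ} (hz : z ∈ τ.ker) (hz2 : z * z = 1) : z = 1 := by
  classical
  have hm : 1 ≤ m := by omega
  obtain ⟨hs, hcen, hcomm⟩ := hτ
  have h2 : (2 : F) = 0 := sz_two
  choose X hX using fun a : F => hs (uG hF a 0)
  choose Y hY using fun b : F => hs (uG hF 0 b)
  choose D hD using fun l : Fˣ => hs (hG hF l)
  have hcc : ∀ v ∈ τ.ker, ∀ g, g * v = v * g := fun v hv g => Subgroup.mem_center_iff.1 (hcen hv) g
  have hwd : ∀ a a' b b', τ a = τ a' → τ b = τ b' → ⁅a, b⁆ = ⁅a', b'⁆ := by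
    intro a a' b b' ha hb
    have h1 : a'⁻¹ * a ∈ τ.ker := by
      rw [MonoidHom.mem_ker, map_mul, map_inv, ha, inv_mul_cancel]
    have h3 : b'⁻¹ * b ∈ τ.ker := by
      rw [MonoidHom.mem_ker, map_mul, map_inv, hb, inv_mul_cancel]
    have e1 := H19.Hopf.comm_mul_central_left (hcc _ h1) a' (b' * (b'⁻¹ * b))
    have e2 := H19.Hopf.comm_mul_central_right (hcc _ h3) a' b'
    rw [mul_inv_cancel_left, mul_inv_cancel_left] at e1
    rw [mul_inv_cancel_left] at e2
    rw [e1, e2]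
  have hDY : ∀ (l : Fˣ) b, τ (D l * Y b * (D l)⁻¹) = τ (Y ((l : F) ^ (2 ^ (m + 1) + 1) * b)) := by
    intro l b
    have h1 := conj_central hF 0 0 l b
    rw [uG_zero, one_mul] at h1
    rw [map_mul, map_mul, map_inv, hD, hY, hY, h1]
  have hDX : ∀ (l : Fˣ) a, τ (D l * X a * (D l)⁻¹) = τ (X ((l : F) * a)) := by
    intro l a
    rw [map_mul, map_mul, map_inv, hD, hX, hX, hG_uG, mul_zero, mul_inv_cancel_right]
  have hYmul : ∀ b b', τ (Y b * Y b') = τ (Y (b + b')) := by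
    intro b b'
    rw [map_mul, hY, hY, hY, uG_zero_mul]
  have hXmul : ∀ a a', τ (X a * X a') = τ (X (a + a') * Y (a ^ (2 ^ (m + 1)) * a')) := by
    intro a a'
    rw [map_mul, map_mul, hX, hX, hX, hY, uG_mul, uG_mul]
    simp
  letI : CommGroup (Subgroup.center Δ) :=
    { (inferInstance : Group (Subgroup.center Δ)) with
      mul_comm := fun a b => Subtype.ext (Subgroup.mem_center_iff.1 b.2 a.1) }
  -- `Ŷ` is abelian
  have hYker : ∀ b b', ⁅Y b, Y b'⁆ ∈ τ.ker := by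
    intro b b'
    rw [MonoidHom.mem_ker, map_commutatorElement, hY, hY, commutatorElement_eq_one_iff_mul_comm, uG_zero_mul,
      uG_zero_mul, add_comm]
  have hYY : ∀ b b', ⁅Y b, Y b'⁆ = 1 := by
    let c : F → F → Subgroup.center Δ := fun b b' => ⟨⁅Y b, Y b'⁆, hcen (hYker b b')⟩
    obtain ⟨l₀, h0, h1, hw⟩ := exists_l_one (F := F) h2 (by
      rw [hF]
      have : 2 ^ 3 ≤ 2 ^ (2 * m + 1) := Nat.pow_le_pow_right (by norm_num) (by omega)
      omega)
    have hc : ∀ a b, c a b = 1 := by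
      refine form_vanish (φ := id) h2 ?_ ?_ ?_ (fun l hl => hl) h0 h1 hw
      · intro x x' y
        apply Subtype.ext
        show ⁅Y (x + x'), Y y⁆ = ⁅Y x, Y y⁆ * ⁅Y x', Y y⁆
        rw [← hwd (Y x * Y x') (Y (x + x')) (Y y) (Y y) (hYmul x x') rfl]
        exact H19.comm_mul_left_of_central _ _ _ (hcc _ (hYker x' y))
      · intro x y y'
        apply Subtype.ext
        show ⁅Y x, Y (y + y')⁆ = ⁅Y x, Y y⁆ * ⁅Y x, Y y'⁆
        rw [← hwd (Y x) (Y x) (Y y * Y y') (Y (y + y')) rfl (hYmul y y')]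
        exact H19.comm_mul_right_of_central _ _ _ (hcc _ (hYker x y'))
      · intro l a b hl
        apply Subtype.ext
        show ⁅Y (l * a), Y (l * b)⁆ = ⁅Y a, Y b⁆
        obtain ⟨s, hs'⟩ := exists_pow_eq hF l
        have hs0 : s ≠ 0 := by
          rintro rfl
          rw [zero_pow (by positivity)] at hs'
          exact hl hs'.symm
        have e1 := hDY (Units.mk0 s hs0) a
        have e2 := hDY (Units.mk0 s hs0) b
        simp only [Units.val_mk0] at e1 e2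
        rw [hs'] at e1 e2
        rw [← hwd _ _ _ _ e1 e2, ← conjugate_commutatorElement, hcc _ (hYker a b), mul_inv_cancel_right]
    intro b b'
    exact congrArg Subtype.val (hc b b')
  -- `Ŷ` is central in `Û`
  have hXYker : ∀ a b, ⁅X a, Y b⁆ ∈ τ.ker := by
    intro a b
    rw [MonoidHom.mem_ker, map_commutatorElement, hX, hY, commutatorElement_eq_one_iff_mul_comm]
    exact (uG_zero_mem_center hF b a 0).symm
  have hXY : ∀ a b, ⁅X a, Y b⁆ = 1 := by
    let c : F → F → Subgroup.center Δ := fun a b => ⟨⁅X a, Y b⁆, hcen (hXYker a b)⟩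
    obtain ⟨l₀, h0, h1, hw⟩ := exists_l_sigma (F := F) h2m hF
    have hc : ∀ a b, c a b = 1 := by
      refine form_vanish (φ := fun l => l ^ (2 ^ (m + 1) + 1)) h2 ?_ ?_ ?_
        (fun l hl => pow_ne_zero _ hl) h0 h1 hw
      · intro x x' y
        apply Subtype.ext
        show ⁅X (x + x'), Y y⁆ = ⁅X x, Y y⁆ * ⁅X x', Y y⁆
        have e1 := hwd _ _ (Y y) (Y y) (hXmul x x') rfl
        have e2 : ⁅X x * X x', Y y⁆ = ⁅X x, Y y⁆ * ⁅X x', Y y⁆ :=
          H19.comm_mul_left_of_central _ _ _ (hcc _ (hXYker x' y))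
        have e3 : Y (x ^ (2 ^ (m + 1)) * x') * Y y = Y y * Y (x ^ (2 ^ (m + 1)) * x') :=
          commutatorElement_eq_one_iff_mul_comm.1 (hYY _ _)
        rw [comm_mul_left_of_commute _ _ _ e3] at e1
        rw [← e1, e2]
      · intro x y y'
        apply Subtype.ext
        show ⁅X x, Y (y + y')⁆ = ⁅X x, Y y⁆ * ⁅X x, Y y'⁆
        rw [← hwd (X x) (X x) (Y y * Y y') (Y (y + y')) rfl (hYmul y y')]
        exact H19.comm_mul_right_of_central _ _ _ (hcc _ (hXYker x y'))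
      · intro l a b hl
        apply Subtype.ext
        show ⁅X (l * a), Y (l ^ (2 ^ (m + 1) + 1) * b)⁆ = ⁅X a, Y b⁆
        have e1 := hDX (Units.mk0 l hl) a
        have e2 := hDY (Units.mk0 l hl) b
        simp only [Units.val_mk0] at e1 e2
        rw [← hwd _ _ _ _ e1 e2, ← conjugate_commutatorElement, hcc _ (hXYker a b), mul_inv_cancel_right]
    intro a b
    exact congrArg Subtype.val (hc a b)
  -- the subgroup `Ŷ`
  let Yh : Subgroup Δ := (szZ hF ⊤).comap τ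
  have hYh : ∀ v, v ∈ Yh ↔ ∃ b, τ v = uG hF 0 b := by
    intro v
    constructor
    · rintro ⟨b, -, hb⟩
      exact ⟨b, hb⟩
    · rintro ⟨b, hb⟩
      exact ⟨b, trivial, hb⟩
  have hXv : ∀ a, ∀ v ∈ Yh, X a * v = v * X a := by
    intro a v hv
    obtain ⟨b, hb⟩ := (hYh v).1 hv
    rw [← commutatorElement_eq_one_iff_mul_comm, hwd (X a) (X a) v (Y b) rfl (by rw [hb, hY]), hXY]
  have hvv : ∀ v ∈ Yh, ∀ v' ∈ Yh, v * v' = v' * v := by
    intro v hv v' hv'
    obtain ⟨b, hb⟩ := (hYh v).1 hv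
    obtain ⟨b', hb'⟩ := (hYh v').1 hv'
    rw [← commutatorElement_eq_one_iff_mul_comm, hwd v (Y b) v' (Y b') (by rw [hb, hY]) (by rw [hb', hY]), hYY]
  letI iC : CommGroup Yh :=
    { (inferInstance : Group Yh) with
      mul_comm := fun a b => Subtype.ext (hvv a a.2 b b.2) }
  have hcjmem : ∀ (l : Fˣ) v, v ∈ Yh → D l * v * (D l)⁻¹ ∈ Yh := by
    intro l v hv
    obtain ⟨b, hb⟩ := (hYh v).1 hv
    refine (hYh _).2 ⟨(l : F) ^ (2 ^ (m + 1) + 1) * b, ?_⟩
    have h1 := conj_central hF 0 0 l b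
    rw [uG_zero, one_mul] at h1
    rw [map_mul, map_mul, map_inv, hD, hb, h1]
  let cj : Fˣ → Yh →* Yh := fun l =>
    { toFun := fun v => ⟨D l * v * (D l)⁻¹, hcjmem l v v.2⟩
      map_one' := by
        apply Subtype.ext
        show D l * 1 * (D l)⁻¹ = 1
        group
      map_mul' := by
        intro v v'
        apply Subtype.ext
        show D l * ((v : Δ) * v') * (D l)⁻¹ = (D l * v * (D l)⁻¹) * (D l * v' * (D l)⁻¹)
        group }
  let P : Yh →* Yh := ∏ l : Fˣ, cj l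
  have hP : ∀ v, P v = ∏ l : Fˣ, cj l v := fun v => MonoidHom.finset_prod_apply _ _ _
  have hcj2 : ∀ (l l' : Fˣ) v, cj l' (cj l v) = cj (l' * l) v := by
    intro l l' v
    apply Subtype.ext
    show D l' * (D l * v * (D l)⁻¹) * (D l')⁻¹ = D (l' * l) * v * (D (l' * l))⁻¹
    have hκ : (D (l' * l))⁻¹ * (D l' * D l) ∈ τ.ker := by
      rw [MonoidHom.mem_ker, map_mul, map_mul, map_inv, hD, hD, hD, hG_mul, inv_mul_cancel]
    set κ := (D (l' * l))⁻¹ * (D l' * D l) with hκdef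
    have e : D l' * D l = D (l' * l) * κ := by
      rw [hκdef]
      group
    calc D l' * (D l * v * (D l)⁻¹) * (D l')⁻¹ = (D l' * D l) * v * (D l' * D l)⁻¹ := by group
      _ = D (l' * l) * (κ * v * κ⁻¹) * (D (l' * l))⁻¹ := by rw [e]; group
      _ = D (l' * l) * (v * κ * κ⁻¹) * (D (l' * l))⁻¹ := by rw [← hcc κ hκ v]
      _ = _ := by rw [mul_inv_cancel_right]
  have hPcj : ∀ (l : Fˣ) v, P (cj l v) = P v := by
    intro l v
    rw [hP, hP]
    exact Fintype.prod_equiv (Equiv.mulRight l) _ _ (fun l' => hcj2 l l' v)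
  -- on the kernel
  have hzY : z ∈ Yh := (hYh z).2 ⟨0, by rw [uG_zero]; exact hz⟩
  have hPz : P ⟨z, hzY⟩ = ⟨z, hzY⟩ := by
    have h1 : ∀ l : Fˣ, cj l ⟨z, hzY⟩ = ⟨z, hzY⟩ := by
      intro l
      apply Subtype.ext
      show D l * z * (D l)⁻¹ = z
      rw [hcc z hz, mul_inv_cancel_right]
    rw [hP]
    simp only [h1]
    rw [Finset.prod_const, Finset.card_univ, Fintype.card_units, hF]
    apply Subtype.ext
    obtain ⟨j, hj⟩ : ∃ j, 2 ^ (2 * m + 1) - 1 = 2 * j + 1 := by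
      have h3 := odd_q_sub_one m
      exact ⟨(2 ^ (2 * m + 1) - 1) / 2, by omega⟩
    rw [hj]
    show z ^ (2 * j + 1) = z
    rw [pow_succ, pow_mul, sq, hz2, one_pow, one_mul]
  -- the commutator form
  have hXXmem : ∀ a a', ⁅X a, X a'⁆ ∈ Yh := by
    intro a a'
    refine (hYh _).2 ⟨a ^ (2 ^ (m + 1)) * a' + a' ^ (2 ^ (m + 1)) * a, ?_⟩
    rw [map_commutatorElement, hX, hX, uG_comm]
  let ch : F → F → Yh := fun a a' => ⟨⁅X a, X a'⁆, hXXmem a a'⟩
  have hchl : ∀ x x' y, ch (x + x') y = ch x y * ch x' y := by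
    intro x x' y
    apply Subtype.ext
    show ⁅X (x + x'), X y⁆ = ⁅X x, X y⁆ * ⁅X x', X y⁆
    have e1 := hwd _ _ (X y) (X y) (hXmul x x') rfl
    have e3 : Y (x ^ (2 ^ (m + 1)) * x') * X y = X y * Y (x ^ (2 ^ (m + 1)) * x') := by
      exact (hXv y _ ((hYh _).2 ⟨_, hY _⟩)).symm
    rw [comm_mul_left_of_commute _ _ _ e3] at e1
    have e2 := comm_mul_left_of_comm (X x) (X x') (X y) (hXv x _ (hXXmem x' y))
    rw [← e1, e2]
    exact hvv _ (hXXmem x' y) _ (hXXmem x y)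
  have hchr : ∀ x y y', ch x (y + y') = ch x y * ch x y' := by
    intro x y y'
    have hinv : ∀ a b, ch a b = (ch b a)⁻¹ := by
      intro a b
      apply Subtype.ext
      show ⁅X a, X b⁆ = ⁅X b, X a⁆⁻¹
      rw [commutatorElement_inv]
    rw [hinv x (y + y'), hchl, hinv x y, hinv x y', _root_.mul_inv]
  have hch0 : ∀ (l : Fˣ) a a', ch ((l : F) * a) ((l : F) * a') = cj l (ch a a') := by
    intro l a a'
    apply Subtype.ext
    show ⁅X ((l : F) * a), X ((l : F) * a')⁆ = D l * ⁅X a, X a'⁆ * (D l)⁻¹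
    rw [← hwd _ _ _ _ (hDX l a) (hDX l a'), ← conjugate_commutatorElement]
  have hPch : ∀ a a', P (ch a a') = 1 := by
    obtain ⟨l₀, h0, h1, hw⟩ := exists_l_one (F := F) h2 (by
      rw [hF]
      have : 2 ^ 3 ≤ 2 ^ (2 * m + 1) := Nat.pow_le_pow_right (by norm_num) (by omega)
      omega)
    refine form_vanish (c := fun a a' => P (ch a a')) (φ := id) h2 ?_ ?_ ?_ (fun l hl => hl) h0 h1 hw
    · intro x x' y
      show P (ch (x + x') y) = P (ch x y) * P (ch x' y)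
      rw [hchl, map_mul]
    · intro x y y'
      show P (ch x (y + y')) = P (ch x y) * P (ch x y')
      rw [hchr, map_mul]
    · intro l a b hl
      show P (ch (l * a) (l * b)) = P (ch a b)
      have := hch0 (Units.mk0 l hl) a b
      simp only [Units.val_mk0] at this
      rw [this, hPcj]
  -- the subgroup `Û`
  let Uh : Subgroup Δ := (szUG hF).comap τ
  have hUform : ∀ g ∈ Uh, ∃ a, ∃ v ∈ Yh, g = X a * v := by
    rintro g ⟨a, b, hab⟩
    refine ⟨a, (X a)⁻¹ * g, (hYh _).2 ⟨b, ?_⟩, by group⟩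
    rw [map_mul, map_inv, hX, hab, uG_decomp hF a b, inv_mul_cancel_left]
  have hcommUU : ∀ g ∈ Uh, ∀ g' ∈ Uh, ∃ a a', ⁅g, g'⁆ = ⁅X a, X a'⁆ := by
    intro g hg g' hg'
    obtain ⟨a, v, hv, rfl⟩ := hUform g hg
    obtain ⟨a', v', hv', rfl⟩ := hUform g' hg'
    refine ⟨a, a', ?_⟩
    have e1 : v * (X a' * v') = (X a' * v') * v := by
      rw [← mul_assoc, ← hXv a' v hv, mul_assoc, mul_assoc, hvv v hv v' hv']
    rw [comm_mul_left_of_commute _ _ _ e1, comm_mul_right_of_commute _ _ _ (hXv a v' hv').symm]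
  let K : Subgroup Uh := ((P.ker).map Yh.subtype).subgroupOf Uh
  have hK : commutator Uh ≤ K := by
    rw [commutator_def, Subgroup.commutator_le]
    intro g _ g' _
    obtain ⟨a, a', h1⟩ := hcommUU g g.2 g' g'.2
    rw [Subgroup.mem_subgroupOf]
    refine ⟨ch a a', hPch a a', ?_⟩
    show ⁅X a, X a'⁆ = ⁅(g : Δ), (g' : Δ)⁆
    exact h1.symm
  obtain ⟨h3, h4⟩ := H09.transfer_central Uh (hcomm hz) (hcen hz)
  have h5 : z ^ Uh.index = z := by
    have h6 : ¬ 2 ∣ Uh.index := by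
      rw [show Uh = (szUG hF).comap τ from rfl, Subgroup.index_comap_of_surjective _ hs]
      exact not_two_dvd_index hm hF
    obtain ⟨j, hj⟩ : ∃ j, Uh.index = 2 * j + 1 := ⟨Uh.index / 2, by omega⟩
    rw [hj, pow_succ, pow_mul, sq, hz2, one_pow, one_mul]
  have h6 := hK h4
  rw [Subgroup.mem_subgroupOf] at h6
  obtain ⟨v, hv, hvz⟩ := h6
  have h7 : (v : Δ) = z := by
    rw [← h5]
    exact hvz
  have h8 : v = ⟨z, hzY⟩ := Subtype.ext h7
  have h9 : P ⟨z, hzY⟩ = 1 := by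
    rw [← h8]
    exact hv
  rw [hPz] at h9
  exact congrArg Subtype.val h9

/-- The Schur multiplier of `Sz(q)` for `q > 8`. -/
theorem sz_ker_eq_bot (h2m : 2 ≤ m) (hF : Fintype.card F = 2 ^ (2 * m + 1)) {Δ : Type*} [Group Δ] [Finite Δ]
    (τ : Δ →* ↥(Sz F m)) (hτ : IsStemExtension τ) : τ.ker = ⊥ := by
  have hm : 1 ≤ m := by omega
  refine H09.ker_eq_bot_of_local τ hτ ?_
  intro r hr R z hzR hord hzk hzZ hzC hzc
  by_cases hr2 : r = 2
  · subst hr2
    apply sz_two_part h2m hF τ hτ hzk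
    have := pow_orderOf_eq_one z
    rwa [hord, sq] at this
  · haveI : IsCyclic ↥((R : Subgroup Δ).map τ) := isCyclic_sylow_odd hm hF hr2 _ (R.isPGroup'.map τ)
    have hker : (τ.subgroupMap (R : Subgroup Δ)).ker ≤ Subgroup.center ↥(R : Subgroup Δ) := by
      intro x hx
      rw [Subgroup.mem_center_iff]
      intro y
      apply Subtype.ext
      have h1 : τ x = 1 := congrArg Subtype.val (MonoidHom.mem_ker.1 hx)
      exact Subgroup.mem_center_iff.1 (hτ.2.1 (MonoidHom.mem_ker.2 h1)) y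
    have hcomm := commutative_of_cyclic_center_quotient (τ.subgroupMap (R : Subgroup Δ)) hker
    have hbot : commutator ↥(R : Subgroup Δ) = ⊥ := by
      rw [commutator_eq_closure, Subgroup.closure_eq_bot_iff]
      rintro _ ⟨a, b, rfl⟩
      rw [Set.mem_singleton_iff, commutatorElement_eq_one_iff_mul_comm]
      exact hcomm a b
    rw [hbot, Subgroup.mem_bot] at hzc
    exact congrArg Subtype.val hzc

end Cfsg.Agent.H10
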