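import Mathlib
import Cfsg.Agent.Lib.Lead.CardSL

/-! Semisimple elements commuting with a non-trivial unipotent element. -/

set_option autoImplicit false
set_option linter.unusedSectionVars false
set_option linter.unusedSimpArgs false
set_option linter.style.haveILetI false

namespace Cfsg.Agent.H10

open Matrix Module

/-- An element of order a power of `r` on a vector space of dimension `m`, with `r ∣ |GL_m|`. -/
lemma prime_dvd_card_GL_of_end {F : Type*} [Field F] [Fintype F] {V' : Type*} [AddCommGroup V'] [Module F V']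
    [FiniteDimensional F V'] {m : ℕ} (hm : finrank F V' = m) (T : V' →ₗ[F] V') {r f : ℕ} (hr : r.Prime)
    (hT : T ^ (r ^ f) = 1) (hT1 : T ≠ 1) : r ∣ Nat.card (Matrix.GeneralLinearGroup (Fin m) F) := by
  classical
  let b : Basis (Fin m) F V' := finBasisOfFinrankEq F V' hm
  let M : Matrix (Fin m) (Fin m) F := LinearMap.toMatrixAlgEquiv b T
  have hM : M ^ (r ^ f) = 1 := by
    simp only [M]
    rw [← map_pow, hT, map_one]
  have hM1 : M ≠ 1 := by
    intro h
    apply hT1
    apply (LinearMap.toMatrixAlgEquiv b).injective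
    rw [map_one]
    exact h
  have hpos : r ^ f ≠ 0 := pow_ne_zero _ hr.ne_zero
  let g : Matrix.GeneralLinearGroup (Fin m) F := Units.ofPowEqOne M (r ^ f) hM hpos
  have hg : g ^ (r ^ f) = 1 := by
    apply Units.ext
    simp [g, hM]
  have hg1 : g ≠ 1 := by
    intro h
    apply hM1
    have := congrArg Units.val h
    simpa [g] using this
  obtain ⟨i, -, hi⟩ := (Nat.dvd_prime_pow hr).1 (orderOf_dvd_of_pow_eq_one hg)
  have hi0 : i ≠ 0 := by
    rintro rfl
    apply hg1
    rw [pow_zero] at hi
    exact orderOf_eq_one_iff.1 hi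
  have h1 : r ∣ orderOf g := by
    rw [hi]
    exact dvd_pow_self r hi0
  exact h1.trans (orderOf_dvd_natCard g)

/-- Matrices of order a power of `r` which are unipotent are trivial. -/
lemma eq_one_of_unipotent {F : Type*} [Field F] (p : ℕ) [Fact p.Prime] [CharP F p] {n : ℕ}
    {Y : Matrix (Fin n) (Fin n) F} {r f k : ℕ} (hr : r.Prime) (hrp : r ≠ p) (hY : Y ^ (r ^ f) = 1)
    (hu : (Y - 1) ^ k = 0) : Y = 1 := by
  by_cases hn : n = 0
  · subst hn
    exact Subsingleton.elim _ _
  haveI : Nonempty (Fin n) := ⟨⟨0, by omega⟩⟩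
  haveI : CharP (Matrix (Fin n) (Fin n) F) p := inferInstance
  have hk : k ≤ p ^ k := (Nat.lt_pow_self (Fact.out : p.Prime).one_lt).le
  have h1 : Y ^ p ^ k - 1 ^ p ^ k = (Y - 1) ^ p ^ k :=
    (sub_pow_char_pow_of_commute p k (Commute.one_right _)).symm
  rw [pow_eq_zero_of_le hk hu, one_pow, sub_eq_zero] at h1
  have hco : Nat.Coprime (r ^ f) (p ^ k) :=
    Nat.Coprime.pow _ _ ((Nat.coprime_primes hr Fact.out).2 hrp)
  obtain ⟨u, hu'⟩ : IsUnit Y := by
    by_cases hf : r ^ f = 0
    · exact absurd hf (pow_ne_zero _ hr.ne_zero)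
    · exact IsUnit.of_pow_eq_one hY hf
  have hY' : u ^ (r ^ f) = 1 := by
    apply Units.ext
    rw [Units.val_pow_eq_pow_val, hu', hY, Units.val_one]
  have hP' : u ^ (p ^ k) = 1 := by
    apply Units.ext
    rw [Units.val_pow_eq_pow_val, hu', h1, Units.val_one]
  have h2 := Nat.dvd_gcd (orderOf_dvd_of_pow_eq_one hY') (orderOf_dvd_of_pow_eq_one hP')
  rw [hco] at h2
  have h3 : u = 1 := orderOf_eq_one_iff.1 (Nat.dvd_one.1 h2)
  rw [← hu', h3, Units.val_one]

variable {F : Type*} [Field F] [Fintype F] {n : ℕ}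

/-- The core statement. -/
theorem prime_dvd_of_commuting (p : ℕ) [Fact p.Prime] [CharP F p] (hn : 2 ≤ n)
    {U Y : Matrix (Fin n) (Fin n) F} {r f e : ℕ} (hr : r.Prime) (hrp : r ≠ p)
    (hU : U ^ (p ^ e) = 1) (hU1 : U ≠ 1) (hY : Y ^ (r ^ f) = 1) (hY1 : Y ≠ 1) (hc : U * Y = Y * U) :
    r ∣ Nat.card (Matrix.GeneralLinearGroup (Fin (n - 2)) F) ∨ r ∣ Fintype.card F - 1 := by
  classical
  haveI : Nonempty (Fin n) := ⟨⟨0, by omega⟩⟩
  haveI : CharP (Matrix (Fin n) (Fin n) F) p := inferInstance
  set N : Matrix (Fin n) (Fin n) F := U - 1 with hN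
  set D : Matrix (Fin n) (Fin n) F := Y - 1 with hD
  have hND : N * D = D * N := by
    simp only [hN, hD, Matrix.sub_mul, Matrix.mul_sub, Matrix.one_mul, Matrix.mul_one, hc]
    abel
  have hNY : N * Y = Y * N := by
    simp only [hN, Matrix.sub_mul, Matrix.mul_sub, Matrix.one_mul, Matrix.mul_one, hc]
  have hNnil : N ^ (p ^ e) = 0 := by
    rw [hN, sub_pow_char_pow_of_commute p e (Commute.one_right _), hU, one_pow, sub_self]
  have hN0 : N ≠ 0 := fun h => hU1 (sub_eq_zero.1 h)
  -- `Y` acts non trivially on the kernel of `N`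
  have hker : ∃ x, N *ᵥ x = 0 ∧ D *ᵥ x ≠ 0 := by
    by_contra hcon
    push Not at hcon
    have hind : ∀ (i : ℕ) (x : Fin n → F), N ^ i *ᵥ x = 0 → D ^ i *ᵥ x = 0 := by
      intro i
      induction i with
      | zero =>
        intro x hx
        simpa using hx
      | succ i ih =>
        intro x hx
        have h1 : D ^ i *ᵥ (N *ᵥ x) = 0 := by
          apply ih
          rw [Matrix.mulVec_mulVec, ← pow_succ]
          exact hx
        have h2 : N *ᵥ (D ^ i *ᵥ x) = 0 := by
          rw [Matrix.mulVec_mulVec]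
          have hcomm : N * D ^ i = D ^ i * N := (Commute.pow_right hND i)
          rw [hcomm, ← Matrix.mulVec_mulVec, h1]
        have h3 := hcon _ h2
        rw [Matrix.mulVec_mulVec, ← pow_succ'] at h3
        exact h3
    have hD0 : D ^ (p ^ e) = 0 := by
      ext i j
      have := hind (p ^ e) (Pi.single j 1) (by rw [hNnil, Matrix.zero_mulVec])
      rw [Matrix.mulVec_single_one] at this
      simpa using congrFun this i
    exact hY1 (eq_one_of_unipotent p hr hrp hY hD0)
  -- the linear maps
  let fY : Module.End F (Fin n → F) := Matrix.toLinAlgEquiv' Y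
  let fN : Module.End F (Fin n → F) := Matrix.toLinAlgEquiv' N
  have hfY : ∀ x, fY x = Y *ᵥ x := fun x => Matrix.toLinAlgEquiv'_apply Y x
  have hfN : ∀ x, fN x = N *ᵥ x := fun x => Matrix.toLinAlgEquiv'_apply N x
  have hfYpow : fY ^ (r ^ f) = 1 := by
    simp only [fY]
    rw [← map_pow, hY, map_one]
  let K : Submodule F (Fin n → F) := LinearMap.ker fN
  have hmemK : ∀ x, x ∈ K ↔ N *ᵥ x = 0 := fun x => by
    change fN x = 0 ↔ _
    rw [hfN]
  have hfK : ∀ x ∈ K, fY x ∈ K := by
    intro x hx
    rw [hmemK] at hx ⊢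
    rw [hfY, Matrix.mulVec_mulVec, hNY, ← Matrix.mulVec_mulVec, hx, Matrix.mulVec_zero]
  let gK : Module.End F K := fY.restrict hfK
  have hgKapply : ∀ x : K, ((gK x : K) : Fin n → F) = Y *ᵥ (x : Fin n → F) := fun x => hfY _
  have hgKpow : ∀ (k : ℕ) (x : K), ((gK ^ k) x : Fin n → F) = (fY ^ k) x := by
    intro k
    induction k with
    | zero => intro x; simp
    | succ k ih =>
      intro x
      rw [pow_succ, pow_succ, Module.End.mul_apply, Module.End.mul_apply, ih]
      rfl
  have hgK : gK ^ (r ^ f) = 1 := by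
    ext x
    rw [hgKpow, hfYpow]
    simp
  obtain ⟨x₀, hx₀, hx₀'⟩ := hker
  have hx₀K : x₀ ∈ K := (hmemK x₀).2 hx₀
  have hYx₀ : Y *ᵥ x₀ ≠ x₀ := by
    intro h
    apply hx₀'
    rw [hD, Matrix.sub_mulVec, h, Matrix.one_mulVec, sub_self]
  have hrank : finrank F (LinearMap.range fN) + finrank F K = n := by
    have := LinearMap.finrank_range_add_finrank_ker fN
    rwa [Module.finrank_fin_fun] at this
  have hrange : LinearMap.range fN ≠ ⊥ := by
    intro h
    apply hN0
    rw [LinearMap.range_eq_bot] at h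
    apply (Matrix.toLinAlgEquiv' (R := F) (n := Fin n)).injective
    rw [map_zero]
    exact h
  have hrange1 : 1 ≤ finrank F (LinearMap.range fN) := by
    rw [Nat.one_le_iff_ne_zero]
    intro h
    exact hrange (Submodule.finrank_eq_zero.1 h)
  by_cases hm : finrank F K ≤ n - 2
  · -- small kernel
    left
    obtain ⟨c, hc'⟩ := Nat.exists_eq_add_of_le hm
    let T : Module.End F (K × (Fin c → F)) := LinearMap.prodMap gK LinearMap.id
    have hTpow : ∀ (k : ℕ) (a : K × (Fin c → F)), (T ^ k) a = ((gK ^ k) a.1, a.2) := by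
      intro k
      induction k with
      | zero => intro a; simp
      | succ k ih =>
        intro a
        rw [pow_succ, Module.End.mul_apply, ih, pow_succ, Module.End.mul_apply]
        rfl
    apply prime_dvd_card_GL_of_end (V' := K × (Fin c → F)) (T := T) (by
      rw [Module.finrank_prod, Module.finrank_fin_fun]
      omega) hr (f := f)
    · refine LinearMap.ext fun a => ?_
      rw [hTpow, hgK]
      rfl
    · intro h
      have h1 := congrArg (fun A : Module.End F (K × (Fin c → F)) => (A (⟨x₀, hx₀K⟩, 0)).1) h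
      have h2 : ((gK ⟨x₀, hx₀K⟩ : K) : Fin n → F) = x₀ := congrArg Subtype.val h1
      rw [hgKapply] at h2
      exact hYx₀ h2
  · -- `N` has rank one
    have hfr : finrank F (LinearMap.range fN) = 1 := by omega
    have hKm : finrank F K = n - 1 := by omega
    obtain ⟨⟨x, hxr⟩, hx0, hxspan⟩ := finrank_eq_one_iff'.1 hfr
    have hx0' : x ≠ 0 := fun h => hx0 (Subtype.ext h)
    have hspan : ∀ z, ∃ c : F, N *ᵥ z = c • x := by
      intro z
      obtain ⟨c, hc'⟩ := hxspan ⟨N *ᵥ z, z, hfN z⟩
      exact ⟨c, (congrArg Subtype.val hc').symm⟩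
    obtain ⟨v₀, hv₀⟩ := hxr
    rw [hfN] at hv₀
    -- `x` lies in the kernel
    have hNx : N *ᵥ x = 0 := by
      obtain ⟨c, hc'⟩ := hspan x
      have hpow : ∀ k : ℕ, N ^ k *ᵥ x = c ^ k • x := by
        intro k
        induction k with
        | zero => simp
        | succ k ih =>
          rw [pow_succ, ← Matrix.mulVec_mulVec, hc', Matrix.mulVec_smul, ih, smul_smul, pow_succ, mul_comm]
      have h1 := hpow (p ^ e)
      rw [hNnil, Matrix.zero_mulVec] at h1
      have h2 : c ^ p ^ e = 0 := (smul_eq_zero.1 h1.symm).resolve_right hx0'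
      have h3 : c = 0 := pow_eq_zero_iff (pow_ne_zero _ (Fact.out : p.Prime).ne_zero) |>.1 h2
      rw [hc', h3, zero_smul]
    obtain ⟨α, hα⟩ : ∃ α : F, Y *ᵥ x = α • x := by
      obtain ⟨c, hc'⟩ := hspan (Y *ᵥ v₀)
      refine ⟨c, ?_⟩
      rw [← hc', Matrix.mulVec_mulVec, hNY, ← Matrix.mulVec_mulVec, hv₀]
    have hαpow : ∀ k : ℕ, Y ^ k *ᵥ x = α ^ k • x := by
      intro k
      induction k with
      | zero => simp
      | succ k ih =>
        rw [pow_succ, ← Matrix.mulVec_mulVec, hα, Matrix.mulVec_smul, ih, smul_smul, pow_succ, mul_comm]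
    have hαr : α ^ (r ^ f) = 1 := by
      have h1 := hαpow (r ^ f)
      rw [hY, Matrix.one_mulVec] at h1
      have h2 : (α ^ (r ^ f) - 1) • x = 0 := by
        rw [sub_smul, one_smul, ← h1, sub_self]
      exact sub_eq_zero.1 ((smul_eq_zero.1 h2).resolve_right hx0')
    by_cases hα1 : α = 1
    · left
      subst hα1
      have hxK : x ∈ K := (hmemK x).2 hNx
      let xK : K := ⟨x, hxK⟩
      let P : Submodule F K := Submodule.span F {xK}
      have hgKx : gK xK = xK := by
        apply Subtype.ext
        rw [hgKapply]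
        simpa using hα
      have hP : P ≤ P.comap gK := by
        rw [Submodule.span_le]
        rintro _ rfl
        simp only [Submodule.comap_coe, Set.mem_preimage, hgKx]
        exact Submodule.mem_span_singleton_self _
      let T : Module.End F (K ⧸ P) := P.mapQ P gK hP
      have hTpow : T ^ (r ^ f) = 1 := by
        rw [← Submodule.mapQ_pow (p := P) hP (r ^ f)]
        refine LinearMap.ext fun a => ?_
        induction a using Submodule.Quotient.induction_on with
        | H a =>
          simp [Submodule.mapQ_apply, hgK]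
      have hxK0 : xK ≠ 0 := fun h => hx0' (congrArg Subtype.val h)
      have hfinW : finrank F (K ⧸ P) = n - 2 := by
        have h1 := Submodule.finrank_quotient_add_finrank P
        have h2 : finrank F P = 1 := finrank_span_singleton hxK0
        omega
      by_cases hT1 : T = 1
      · exfalso
        have hrel : ∀ k : K, ∃ c : F, Y *ᵥ (k : Fin n → F) - k = c • x := by
          intro k
          have h1 : T (Submodule.Quotient.mk k) = Submodule.Quotient.mk k := by rw [hT1]; rfl
          have h2 : (Submodule.Quotient.mk (gK k) : K ⧸ P) = Submodule.Quotient.mk k := h1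
          rw [Submodule.Quotient.eq] at h2
          obtain ⟨c, hc'⟩ := Submodule.mem_span_singleton.1 h2
          refine ⟨c, ?_⟩
          have h3 := congrArg Subtype.val hc'
          simp only [Submodule.coe_smul, Submodule.coe_sub, hgKapply] at h3
          exact h3.symm
        have hD3 : D ^ 3 = 0 := by
          have hall : ∀ z, D ^ 3 *ᵥ z = 0 := by
            intro z
            have h1 : N *ᵥ (D *ᵥ z) = 0 := by
              rw [Matrix.mulVec_mulVec, hND, ← Matrix.mulVec_mulVec]
              obtain ⟨c, hc'⟩ := hspan z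
              rw [hc', Matrix.mulVec_smul, hD, Matrix.sub_mulVec, hα, Matrix.one_mulVec]
              simp
            obtain ⟨c, hc'⟩ := hrel ⟨D *ᵥ z, (hmemK _).2 h1⟩
            have h2 : D *ᵥ (D *ᵥ z) = c • x := by
              rw [hD, Matrix.sub_mulVec, Matrix.one_mulVec]
              exact hc'
            have h3 : D *ᵥ (c • x) = 0 := by
              rw [Matrix.mulVec_smul, hD, Matrix.sub_mulVec, hα, Matrix.one_mulVec]
              simp
            rw [pow_succ, pow_two, ← Matrix.mulVec_mulVec, ← Matrix.mulVec_mulVec, h2, h3]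
          ext i j
          have := hall (Pi.single j 1)
          rw [Matrix.mulVec_single_one] at this
          simpa using congrFun this i
        exact hY1 (eq_one_of_unipotent p hr hrp hY hD3)
      · exact prime_dvd_card_GL_of_end hfinW T hr hTpow hT1
    · right
      have hα0 : α ≠ 0 := by
        rintro rfl
        rw [zero_pow (pow_ne_zero _ hr.ne_zero)] at hαr
        exact zero_ne_one hαr
      let u : Fˣ := Units.mk0 α hα0
      have hu : u ^ (r ^ f) = 1 := by
        apply Units.ext
        simpa [u] using hαr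
      have hu1 : u ≠ 1 := fun h => hα1 (congrArg Units.val h)
      obtain ⟨i, -, hi⟩ := (Nat.dvd_prime_pow hr).1 (orderOf_dvd_of_pow_eq_one hu)
      have hi0 : i ≠ 0 := by
        rintro rfl
        apply hu1
        rw [pow_zero] at hi
        exact orderOf_eq_one_iff.1 hi
      have h1 : r ∣ orderOf u := by
        rw [hi]
        exact dvd_pow_self r hi0
      have h2 := orderOf_dvd_natCard u
      rw [Nat.card_eq_fintype_card, Fintype.card_units] at h2
      exact h1.trans h2

/-- Passing from `GL` to `SL`. -/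
theorem prime_dvd_card_SL {r m : ℕ} (hr : r.Prime) (hm : 2 ≤ m)
    (h : r ∣ Nat.card (Matrix.GeneralLinearGroup (Fin m) F) ∨ r ∣ Fintype.card F - 1) :
    r ∣ Nat.card (Matrix.SpecialLinearGroup (Fin m) F) := by
  classical
  haveI : Nonempty (Fin m) := ⟨⟨0, by omega⟩⟩
  have hq : 2 ≤ Fintype.card F := Fintype.one_lt_card
  have hqdvd : Fintype.card F - 1 ∣ Nat.card (Matrix.SpecialLinearGroup (Fin m) F) := by
    have h1 := Cfsg.Agent.Lead.card_SL (F := F) m (by omega)
    have h2 : (Fintype.card F - 1) * (Fintype.card F - 1) ∣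
        ∏ i : Fin m, (Fintype.card F ^ m - Fintype.card F ^ (i : ℕ)) := by
      have hsub : ({⟨0, by omega⟩, ⟨1, by omega⟩} : Finset (Fin m)) ⊆ Finset.univ := Finset.subset_univ _
      refine Dvd.dvd.trans ?_ (Finset.prod_dvd_prod_of_subset _ _ _ hsub)
      rw [Finset.prod_pair (by simp)]
      simp only [pow_zero, pow_one]
      apply mul_dvd_mul
      · exact_mod_cast (Nat.sub_dvd_pow_sub_pow (Fintype.card F) 1 m).trans (by simp)
      · have h3 : Fintype.card F ^ m - Fintype.card F = Fintype.card F * (Fintype.card F ^ (m - 1) - 1) := by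
          rw [Nat.mul_sub, mul_one, ← pow_succ']
          congr 2
          omega
        rw [h3]
        apply Dvd.dvd.mul_left
        exact_mod_cast (Nat.sub_dvd_pow_sub_pow (Fintype.card F) 1 (m - 1)).trans (by simp)
    rw [← h1] at h2
    exact Nat.dvd_of_mul_dvd_mul_left (by omega) h2
  rcases h with h | h
  · rw [Cfsg.Agent.Lead.card_GL_eq_mul_card_SL] at h
    rcases (Nat.Prime.dvd_mul hr).1 h with h' | h'
    · exact h'.trans hqdvd
    · exact h'
  · exact h.trans hqdvd

end Cfsg.Agent.H10
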